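import Cfsg.Agent.Lib.RealChar.FreeInertial.Local
import Cfsg.Agent.Lib.BlockStar.Local
import Cfsg.Agent.Lib.Blocks.Sections

/-!
# A local primitive idempotent seen by a character of height zero
-/

set_option autoImplicit false
set_option linter.style.haveILetI false
set_option linter.unusedSectionVars false

noncomputable section

namespace CfsgLib.RealChar.FreeInertial

open Cfsg CfsgLib.Blocks MonoidAlgebra CfsgLib.BrauerPairs
open CfsgLib.BlockStar (val chiSum IsPrimIdem)

section Mod

variable {G : Type*} [Group G] [Fintype G] {p : ℕ} [Fact p.Prime] {M : Ideal AlgInt} [M.IsPrime]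
  {P : Subgroup G}

/-- An idempotent killed by the Brauer map of a `p`-group has degree in the ideal. -/
theorem memLocalIdeal_val_one_of_brau (hM : IsPModular p M) (hP : IsPGroup p P) (χ : IrrCharacter G)
    {i : MonoidAlgebra (Res M) G} (hi : i ∈ fixedBy (Res M) P) (hii : i * i = i)
    (hbr : brau P i = 0) : MemLocalIdeal M (val χ 1 i) := by
  classical
  haveI := charP_res hM
  have hc1 : Commute (single (1 : G) (1 : Res M)) i := by rw [← one_def]; exact Commute.one_left _
  obtain ⟨E, hE, hEm, hEc⟩ := BlockStar.exists_lift_fixed hii hc1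
  rw [BlockStar.val_eq χ hE hEm hEc, ← one_def, one_mul]
  let τ : MonoidAlgebra (Res M) G → Res M := fun x =>
    ∑ g, x.coeff g * red M ⟨(χ : G → ℂ) g, memLocalRing_irr χ g⟩
  have hτ : τ i = red M ⟨chiSum χ E, memLocalRing_sum fun g _ =>
      (locRing M).mul_mem (E.coeff g).2 (memLocalRing_irr χ g)⟩ := by
    simp only [τ, ← hEm, coeff_mapRingHom, ← map_mul, ← map_sum]
    refine congrArg (red M) (Subtype.ext ?_)
    simp [chiSum]
  have hτadd : ∀ x y, τ (x + y) = τ x + τ y := fun x y => by
    simp [τ, add_mul, Finset.sum_add_distrib]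
  have hτsmul : ∀ (a : Res M) x, τ (a • x) = a * τ x := fun a x => by
    simp only [τ, coeff_smul_apply, smul_eq_mul, Finset.mul_sum, mul_assoc]
  have hτ0 : τ 0 = 0 := by simp [τ]
  have hτsum : ∀ {κ : Type _} (s : Finset κ) (f : κ → MonoidAlgebra (Res M) G),
      τ (∑ k ∈ s, f k) = ∑ k ∈ s, τ (f k) := fun s f => by
    induction s using Finset.induction_on with
    | empty => simp [hτ0]
    | insert a s ha ih => rw [Finset.sum_insert ha, Finset.sum_insert ha, hτadd, ih]
  have hτconj : ∀ (n : G) x, τ (conjA n x) = τ x := fun n x => by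
    simp only [τ, coeff_conjA]
    refine Fintype.sum_equiv (MulAut.conj n⁻¹).toEquiv _ _ fun g => ?_
    simp only [MulEquiv.toEquiv_eq_coe, MulEquiv.coe_toEquiv, MulAut.conj_apply, inv_inv]
    congr 2
    refine Subtype.ext ?_
    have h := CharTheory.IsIrrCharacter.isClassFunction χ.2 g n⁻¹
    rw [inv_inv] at h
    exact h.symm
  have hzero : τ i = 0 := by
    obtain ⟨s, hs, hsum⟩ := exists_eq_sum_orbSum hi
    rw [hsum, hτsum]
    refine Finset.sum_eq_zero fun g hg => ?_
    rw [hτsmul]
    by_cases hgC : g ∈ Subgroup.centralizer (P : Set G)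
    · exfalso
      refine hs g hg ?_
      rw [← coeff_trunc_of_mem hgC i, show trunc _ i = 0 from hbr]
      simp
    · refine mul_eq_zero_of_right _ ?_
      haveI := Fintype.ofFinite (↥P ⧸ (P ⊓ Subgroup.centralizer ({g} : Set G)).subgroupOf P)
      rw [orbSum, relTr_apply, hτsum, Finset.sum_congr rfl fun q _ => hτconj _ _, Finset.sum_const,
        nsmul_eq_mul]
      refine mul_eq_zero_of_left ?_ _
      rw [Finset.card_univ, ← Nat.card_eq_fintype_card, CharP.cast_eq_zero_iff (Res M) p]
      obtain ⟨n, hn⟩ := IsPGroup.iff_card.1 hP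
      obtain ⟨k, -, hk⟩ := (Nat.dvd_prime_pow (Fact.out : p.Prime)).1
        (hn ▸ Subgroup.card_quotient_dvd_card
          ((P ⊓ Subgroup.centralizer ({g} : Set G)).subgroupOf P))
      rcases Nat.eq_zero_or_pos k with rfl | hk0
      · exfalso
        rw [pow_zero, ← Subgroup.index_eq_card, Subgroup.index_eq_one,
          Subgroup.subgroupOf_eq_top] at hk
        exact hgC (Subgroup.mem_centralizer_iff.2 fun u hu =>
          Subgroup.mem_centralizer_singleton_iff.1 (Subgroup.mem_inf.1 (hk hu)).2)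
      · rw [hk]; exact dvd_pow_self p hk0.ne'
  have hmem : MemLocalRing M (chiSum χ E) := memLocalRing_sum fun g _ =>
    (locRing M).mul_mem (E.coeff g).2 (memLocalRing_irr χ g)
  rw [hτ] at hzero
  exact (red_eq_zero_iff _).1 hzero

end Mod

variable {G : Type*} [Group G] [Fintype G] {p : ℕ} [Fact p.Prime] {M : Ideal AlgInt} [M.IsPrime]
  [CharP (Res M) p] [IsAlgClosed (Res M)] {B : Set (IrrCharacter G)} {P : Subgroup G}
  {e0 : MonoidAlgebra (Res M) G} (hM : IsPModular p M) (hB : IsPBlock M B)
  (hmax : IsMaxPair p (⊤ : Subgroup G) (redElem M (blockCoeff B)) P e0)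

include hM hB hmax

/-- Some idempotent fixed by `P` has unit value in a character of height zero. -/
theorem exists_fixed_idem : ∃ χ0 ∈ B, ∃ i : MonoidAlgebra (Res M) G,
    i ∈ fixedBy (Res M) P ∧ i * i = i ∧ ¬ MemLocalIdeal M (val χ0 1 i) := by
  classical
  have hb := isBlockIdem_redElem_blockCoeff (M := M) hB
  obtain ⟨g, hg, S, hS⟩ := (isDefectGroup_iff hM hB).2 (hmax.isDefectIn hb)
  obtain ⟨χ0, hχ0, h00⟩ :=
    BrauerCharacters.exists_height_eq_zero (p := p) (B := B) (Blocks.isPBlock_nonempty hB)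
  refine ⟨χ0, hχ0, ?_⟩
  by_contra hall
  push Not at hall
  apply not_memLocalIdeal_irr_of_blockHeight_eq_zero hM hB hg hχ0 h00
  set o := orderOf g with ho
  have ho0 : 0 < o := orderOf_pos g
  have hpo : ¬ p ∣ o := not_dvd_orderOf_of_isDefectClass hM hB hg
  have hω := Complex.isPrimitiveRoot_exp o ho0.ne'
  set ω : ℂ := Complex.exp (2 * Real.pi * Complex.I / o) with hωdef
  let w : locRing M := ⟨ω, memLocalRing_of_isIntegral
    (isIntegral_of_pow_eq_one ho0.ne' hω.pow_eq_one)⟩
  have hw : w ^ o = 1 := Subtype.ext hω.pow_eq_one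
  let c : locRing M := ⟨((o : ℕ) : ℂ)⁻¹, memLocalRing_inv_natCast hM hpo⟩
  have hco : c * (o : locRing M) = 1 := by
    refine Subtype.ext ?_
    push_cast
    exact inv_mul_cancel₀ (Nat.cast_ne_zero.2 ho0.ne')
  set z : MonoidAlgebra (locRing M) G := single g 1 with hzdef
  have hz : ∀ t : ℕ, z ^ t = single (g ^ t) 1 := fun t => by rw [hzdef, single_pow, one_pow]
  have hzo : z ^ o = 1 := by rw [hz, ho, pow_orderOf_eq_one, one_def]
  -- the eigen idempotents
  let Ej : locRing M → MonoidAlgebra (locRing M) G :=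
    fun r => c • ∑ t ∈ Finset.range o, r ^ t • z ^ t
  have hshift : ∀ r : locRing M, r ^ o = 1 → ∀ t : ℕ, (r ^ t • z ^ t) * Ej r = Ej r := by
    intro r hr
    have h1 : (r • z) * Ej r = Ej r := by
      simp only [Ej, mul_smul_comm, Finset.mul_sum]
      congr 1
      obtain ⟨m, hm⟩ : ∃ m, o = m + 1 := ⟨o - 1, by omega⟩
      rw [hm, Finset.sum_range_succ, Finset.sum_range_succ']
      have hterm : ∀ t : ℕ, r ^ t • (r • z * z ^ t) = r ^ (t + 1) • z ^ (t + 1) := fun t => by
        rw [smul_mul_assoc, smul_smul, ← pow_succ, ← pow_succ']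
      have hlast := hterm m
      rw [hlast, ← hm, hr, hzo, pow_zero, pow_zero]
      congr 1
      exact Finset.sum_congr rfl fun t _ => hterm t
    intro t
    induction t with
    | zero => simp
    | succ t ih =>
      rw [show r ^ (t + 1) • z ^ (t + 1) = (r ^ t • z ^ t) * (r • z) by
        rw [smul_mul_smul_comm, ← pow_succ, ← pow_succ], mul_assoc, h1, ih]
  have hidem : ∀ r : locRing M, r ^ o = 1 → Ej r * Ej r = Ej r := by
    intro r hr
    conv_lhs => arg 1; simp only [Ej]
    rw [smul_mul_assoc, Finset.sum_mul, Finset.sum_congr rfl fun t _ => hshift r hr t,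
      Finset.sum_const, Finset.card_range, ← Nat.cast_smul_eq_nsmul (locRing M), smul_smul, hco,
      one_smul]
  have hcommP : ∀ (r : locRing M), ∀ v ∈ P, Commute (single v (1 : locRing M)) (Ej r) := by
    intro r v hv
    have hvg : Commute v g := by
      rw [hS] at hv
      obtain ⟨a, -, rfl⟩ := hv
      exact Subgroup.mem_centralizer_singleton_iff.1 a.2
    refine Commute.smul_right (Commute.sum_right _ _ _ fun t _ => Commute.smul_right ?_ _) _
    rw [hz]
    show single v (1 : locRing M) * single (g ^ t) 1 = single (g ^ t) 1 * single v 1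
    rw [single_mul_single, single_mul_single, (hvg.pow_right t).eq]
  have hval : ∀ r : locRing M, r ^ o = 1 →
      MemLocalIdeal M ((c : ℂ) * ∑ t ∈ Finset.range o, (r : ℂ) ^ t * (χ0 : G → ℂ) (g ^ t)) := by
    intro r hr
    have hc1 : Commute (single (1 : G) (1 : locRing M)) (Ej r) := by
      rw [← one_def]; exact Commute.one_left _
    have hfix : mapRingHom G (red M) (Ej r) ∈ fixedBy (Res M) P :=
      BlockStar.mem_fixedBy_iff_commute.2 fun v hv => by
        have h := (hcommP r v hv).map (mapRingHom G (red M))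
        rwa [mapRingHom_single, map_one] at h
    have h := hall _ hfix (by rw [← map_mul, hidem r hr])
    rw [BlockStar.val_eq χ0 (hidem r hr) rfl hc1, ← one_def, one_mul] at h
    convert h using 1
    simp only [Ej, chiSum, coeff_smul_apply, coeff_finsetSum_apply, smul_eq_mul, hz,
      Subring.coe_mul, Finset.mul_sum]
    push_cast
    simp only [Finset.mul_sum, Finset.sum_mul]
    rw [Finset.sum_comm]
    refine Finset.sum_congr rfl fun t _ => ?_
    rw [Finset.sum_eq_single (g ^ t)]
    · simp [coeff_single]; ring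
    · intro x _ hx; simp [coeff_single, Finsupp.single_apply, hx.symm]
    · exact fun h => absurd (Finset.mem_univ _) h
  have hsum : (χ0 : G → ℂ) g = ∑ j ∈ Finset.range o, ((ω ^ j) ^ (o - 1)) *
      ((c : ℂ) * ∑ t ∈ Finset.range o, (ω ^ j) ^ t * (χ0 : G → ℂ) (g ^ t)) := by
    simp only [Finset.mul_sum]
    rw [Finset.sum_comm]
    have hterm : ∀ t ∈ Finset.range o,
        ∑ j ∈ Finset.range o, (ω ^ j) ^ (o - 1) * ((c : ℂ) * ((ω ^ j) ^ t * (χ0 : G → ℂ) (g ^ t))) =
          if t = 1 % o then (χ0 : G → ℂ) g else 0 := by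
      intro t ht
      rw [Finset.sum_congr rfl (g := fun j =>
        (c : ℂ) * (χ0 : G → ℂ) (g ^ t) * (ω ^ (o - 1 + t)) ^ j) fun j _ => by
          rw [← pow_mul, ← pow_mul, ← pow_mul,
            show (o - 1 + t) * j = j * (o - 1) + j * t by ring, pow_add]
          ring, ← Finset.mul_sum]
      have ht' := Finset.mem_range.1 ht
      by_cases hdiv : o ∣ o - 1 + t
      · have ht1 : t = 1 % o := by
          obtain ⟨k, hk⟩ := hdiv
          have : (t + (o - 1) + 1) % o = 1 % o := by
            rw [show t + (o - 1) + 1 = 1 + o * k by omega, Nat.add_mul_mod_self_left]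
          rw [show t + (o - 1) + 1 = t + o by omega, Nat.add_mod_right, Nat.mod_eq_of_lt ht'] at this
          exact this
        rw [if_pos ht1, show ω ^ (o - 1 + t) = 1 from (hω.pow_eq_one_iff_dvd _).2 hdiv]
        simp only [one_pow, Finset.sum_const, Finset.card_range, nsmul_eq_mul, mul_one, c]
        rw [ht1, ho, pow_mod_orderOf, pow_one]
        rw [← ho]
        field_simp [Nat.cast_ne_zero.2 ho0.ne']
      · rw [if_neg, geom_sum_eq (fun h => hdiv ((hω.pow_eq_one_iff_dvd _).1 h)), ← pow_mul,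
          mul_comm (o - 1 + t) o, pow_mul, hω.pow_eq_one, one_pow, sub_self, zero_div, mul_zero]
        intro ht1
        apply hdiv
        rw [ht1]
        rcases (show o = 1 ∨ 1 < o by omega) with h | h
        · rw [h]; exact one_dvd _
        · rw [Nat.mod_eq_of_lt h, Nat.sub_add_cancel ho0]
    rw [Finset.sum_congr rfl hterm, Finset.sum_ite_eq', if_pos (Finset.mem_range.2 (Nat.mod_lt _ ho0))]
  rw [hsum]
  refine memLocalIdeal_sum fun j _ => memLocalIdeal_mul_left ?_ ?_
  · exact memLocalRing_of_isIntegral (((hω.isIntegral ho0).pow j).pow (o - 1))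
  · have := hval (w ^ j) (by rw [← pow_mul, mul_comm, pow_mul, hw, one_pow])
    simpa [w] using this

/-- A primitive idempotent whose Brauer image lies in the pair, with unit value. -/
theorem exists_good_idem : ∃ χ0 ∈ B, ∃ i : MonoidAlgebra (Res M) G,
    IsPrimIdem P i ∧ brau P i * e0 ≠ 0 ∧ ¬ MemLocalIdeal M (val χ0 1 i) := by
  classical
  have hb := isBlockIdem_redElem_blockCoeff (M := M) hB
  obtain ⟨χ0, hχ0, x, hx, hxx, hxv⟩ := exists_fixed_idem hM hB hmax
  have hc1 : ∀ y : MonoidAlgebra (Res M) G, Commute (single (1 : G) (1 : Res M)) y := fun y => by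
    rw [← one_def]; exact Commute.one_left _
  have hprim : ∃ j : MonoidAlgebra (Res M) G, IsPrimIdem P j ∧ ¬ MemLocalIdeal M (val χ0 1 j) := by
    refine (BlockStar.idem_induction (k := Res M) P
      (P := fun y => MemLocalIdeal M (val χ0 1 y) ∨
        ∃ j, IsPrimIdem P j ∧ ¬ MemLocalIdeal M (val χ0 1 j))
      (Or.inl (show MemLocalIdeal M (val χ0 1 (0 : MonoidAlgebra (Res M) G)) by
        rw [BlockStar.val_zero]; exact memLocalIdeal_zero (M := M)))
      (fun j hj => (em _).imp id fun h => ⟨j, hj, h⟩)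
      (fun a b _ _ haa hbb hab' hba ha hb' => ?_) hx hxx).resolve_left hxv
    rcases ha with ha | ha
    · rcases hb' with hb' | hb'
      · left
        rw [BlockStar.val_add χ0 haa hbb (hc1 a) (hc1 b) hab' hba]
        exact memLocalIdeal_add ha hb'
      · exact Or.inr hb'
    · exact Or.inr ha
  obtain ⟨j, hj, hjv⟩ := hprim
  refine ⟨χ0, hχ0, ?_⟩
  have hbr : brau P j ≠ 0 := fun h =>
    hjv (memLocalIdeal_val_one_of_brau hM hmax.1.1.1 χ0 hj.1 hj.2.1 h)
  obtain ⟨b, hbp, hb'⟩ := BlockStar.exists_pair_of_prim (R := (⊥ : Subgroup G)) hmax.1.1.1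
    bot_le (by simp) (by rwa [sup_bot_eq]) hbr
  have hbot : ∀ y : MonoidAlgebra (Res M) G, brau (⊥ : Subgroup G) y = y := fun y =>
    trunc_eq_self fun t ht => absurd (Subgroup.mem_centralizer_iff.2 fun u hu => by
      rw [Subgroup.mem_bot.1 hu, one_mul, mul_one]) ht
  have hcb : IsBlockIdem (cenIn (⊤ : Subgroup G) (⊥ : Subgroup G)) (redElem M (blockCoeff B)) := by
    rwa [cenIn_top, show Subgroup.centralizer ((⊥ : Subgroup G) : Set G) = ⊤ from
      eq_top_iff.2 fun t _ => Subgroup.mem_centralizer_iff.2 fun u hu => by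
        rw [Subgroup.mem_bot.1 hu, one_mul, mul_one]]
  have hle : PairLE p (⊤ : Subgroup G) (⊥ : Subgroup G) (redElem M (blockCoeff B)) P b := by
    refine hb' ⊥ bot_le _ hcb ?_
    rw [hbot]
    intro h
    apply hjv
    rw [← BlockStar.val_mul_redElem χ0 hB hχ0 hj.2.1 (hc1 j), h, BlockStar.val_zero]
    exact memLocalIdeal_zero
  have hpo : PairOf p (⊤ : Subgroup G) (redElem M (blockCoeff B)) P b :=
    (hle.pairOf_iff hb).1 ⟨⟨IsPGroup.of_bot, le_top, hcb⟩, by rw [hbot, hb.mul_self]⟩
  obtain ⟨c, -, hc⟩ := hpo.exists_conj_le hb hmax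
  have hcP : cj c P = P := Subgroup.eq_of_le_of_card_ge hc.le (by
    rw [cj, Subgroup.card_map_of_injective (MulAut.conj c).injective])
  rw [hcP] at hc
  have hbe : conjA c b = e0 :=
    (existsUnique_pairLE hmax.1.1 le_rfl).unique hc (PairLE.refl _ _ _ _)
  have hcN : c ∈ Subgroup.normalizer (P : Set G) := Subgroup.mem_normalizer_iff.2 fun u => by
    conv_rhs => rw [← hcP]
    rw [mem_cj]
    simp [mul_assoc]
  have hcinv : c⁻¹ ∈ Subgroup.normalizer (P : Set G) := inv_mem hcN
  have hfixc : ∀ d ∈ Subgroup.normalizer (P : Set G), ∀ y ∈ fixedBy (Res M) P,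
      conjA d y ∈ fixedBy (Res M) P := fun d hd y hy u hu => by
    have hu' : d⁻¹ * u * d ∈ P := (Subgroup.mem_normalizer_iff.1 hd _).2 (by simpa [mul_assoc] using hu)
    calc conjA u (conjA d y) = conjA d (conjA (d⁻¹ * u * d) y) := by
          rw [← conjA_mul, ← conjA_mul]; congr 2; group
      _ = conjA d y := by rw [hy _ hu']
  refine ⟨conjA c j, ⟨hfixc c hcN j hj.1, by rw [← map_mul, hj.2.1],
    fun h => hj.2.2.1 (by simpa using congrArg (conjA c⁻¹) h), fun f hf hff h1 h2 => ?_⟩, ?_, ?_⟩
  · have := hj.2.2.2 (conjA c⁻¹ f) (hfixc _ hcinv f hf) (by rw [← map_mul, hff])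
      (by
        have h := congrArg (conjA c⁻¹) h1
        rwa [map_mul, ← conjA_mul, inv_mul_cancel, conjA_one] at h)
      (by
        have h := congrArg (conjA c⁻¹) h2
        rwa [map_mul, ← conjA_mul, inv_mul_cancel, conjA_one] at h)
    rcases this with h | h
    · exact Or.inl (by simpa [← conjA_mul] using congrArg (conjA c) h)
    · right
      have h' := congrArg (conjA c) h
      rwa [← conjA_mul, mul_inv_cancel, conjA_one] at h'
  · have hcN' : c ∈ Subgroup.normalizer
        (Subgroup.centralizer (P : Set G) : Set G) := normalizer_le_normalizer_cen P hcN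
    rw [brau, ← conjA_trunc hcN', ← hbe, ← map_mul]
    intro h
    have h0 : brau P j * b = 0 := by simpa using congrArg (conjA c⁻¹) h
    obtain ⟨d, hd, hdne⟩ := exists_isBlockIdem_mul_ne_zero (cenIn (⊤ : Subgroup G) P) hbr
    rw [(existsUnique_pairLE hbp le_rfl).unique (hb' P le_rfl d hd hdne)
      (PairLE.refl _ _ _ _)] at hdne
    exact hdne h0
  · rwa [show (1 : G) = c * 1 * c⁻¹ by group, BlockStar.val_conj χ0 c hj.2.1 (hc1 j)]

end CfsgLib.RealChar.FreeInertial
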