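import Cfsg.Agent.Lib.BrauerPairs.StarLattice

/-!
# Integral vectors with Gram matrix `I + eJ`

If `m` integral vectors have Gram matrix `I + eJ` and no coordinate is killed by all of them,
there are at most `e + m` coordinates. For `e ≤ 3` the exceptions to equality are listed.
-/

set_option autoImplicit false
set_option linter.unusedSectionVars false
set_option linter.style.haveILetI false

namespace CfsgLib.RealChar.FreeInertial

open Finset

variable {ι J : Type*} [Fintype ι] [DecidableEq ι] [Fintype J] [DecidableEq J]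
  {A : J → ι → ℤ} {e : ℕ}

/-- The shape of such a family: `Q` is the square sum of the common part outside the star. -/
theorem exists_shape (hA : ∀ j j', ∑ i, A j i * A j' i = (if j = j' then (1 : ℤ) else 0) + (e : ℤ))
    (hne : ∀ i, ∃ j, A j i ≠ 0) (hJ : 2 ≤ Fintype.card J) :
    ∃ (c : ℤ) (n : ℕ) (Q : ℤ), Fintype.card ι = Fintype.card J + n ∧ (n : ℤ) ≤ Q ∧
      (Q ≤ 3 → (n : ℤ) = Q) ∧
      c * c + ((Fintype.card J : ℤ) - 1) * ((1 + c) * (1 + c)) + Q = e + 1 ∧
      ∀ r : ι → ℤ, (∀ j, ∑ i, r i * A j i = 0) → c = 0 → n = 1 → Q = 1 →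
        ∃ f : ℤ, ∑ i, r i * r i =
          ((Fintype.card J : ℤ) + ((Fintype.card J : ℤ) - 1) * ((Fintype.card J : ℤ) - 1)) *
            (f * f) := by
  classical
  obtain ⟨o⟩ : Nonempty J := Fintype.card_pos_iff.1 (by omega)
  haveI : Nonempty ι := by
    by_contra h
    haveI := not_nonempty_iff.1 h
    have h1 := hA o o
    rw [Fintype.sum_empty, if_pos rfl] at h1
    omega
  obtain ⟨a, b, s, hs, hbinj, hbne, hda, hdb, hoff⟩ := CfsgLib.BrauerPairs.exists_star hA o
  obtain ⟨t, htdef⟩ : ∃ t : {j : J // j ≠ o} → ℤ, ∀ j, t j = A j (b j) - A o (b j) :=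
    ⟨fun j => A j (b j) - A o (b j), fun _ => rfl⟩
  have htt : ∀ j, t j * t j = 1 := fun j => by rw [htdef]; exact hdb j
  have hrel : ∀ j, A o a * s + A o (b j) * t j = -1 := fun j => by
    rw [← CfsgLib.BrauerPairs.diff_mul_base hA o j j.2, htdef]
    refine ((Fintype.sum_eq_add a (b j) (hbne j).symm fun i hi => ?_).trans ?_).symm
    · rw [hoff j i hi.1 hi.2, sub_self, mul_zero]
    · rw [hda]
  have hca : A o a * A o a = A o a * s * (A o a * s) := by
    linear_combination (-(A o a * A o a)) * hs
  have hcb : ∀ j, A o (b j) * A o (b j) = (1 + A o a * s) * (1 + A o a * s) := fun j => by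
    have h : A o (b j) * t j = -(1 + A o a * s) := by linarith [hrel j]
    have h2 : A o (b j) * t j * (A o (b j) * t j) = A o (b j) * A o (b j) := by
      linear_combination (A o (b j) * A o (b j)) * htt j
    rw [← h2, h]; ring
  set E : Finset ι := insert a (univ.image b) with hE
  have hnot : a ∉ univ.image b := by simp [hbne]
  have hEsum : ∀ f : ι → ℤ, ∑ i ∈ E, f i = f a + ∑ j, f (b j) := fun f => by
    rw [hE, sum_insert hnot, sum_image fun x _ y _ h => hbinj h]
  have hm1 : Fintype.card {j : J // j ≠ o} + 1 = Fintype.card J := by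
    have h := Fintype.card_subtype_compl (fun j : J => j = o)
    rw [Fintype.card_subtype_eq] at h
    simp only [ne_eq]
    omega
  have hEcard : E.card = Fintype.card J := by
    rw [hE, card_insert_of_notMem hnot, card_image_of_injective _ hbinj, card_univ, hm1]
  have hout : ∀ i ∈ Eᶜ, ∀ j, A j i = A o i := fun i hi j => by
    simp only [hE, mem_compl, mem_insert, mem_image, mem_univ, true_and, not_or, not_exists] at hi
    by_cases h : j = o
    · rw [h]
    · exact hoff ⟨j, h⟩ i hi.1 (Ne.symm (hi.2 _))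
  have hnz : ∀ i ∈ Eᶜ, A o i ≠ 0 := fun i hi h => by
    obtain ⟨j, hj⟩ := hne i
    exact hj ((hout i hi j).trans h)
  refine ⟨A o a * s, Eᶜ.card, ∑ i ∈ Eᶜ, A o i * A o i, ?_, ?_, ?_, ?_, ?_⟩
  · rw [← hEcard, card_add_card_compl]
  · have := card_nsmul_le_sum Eᶜ (fun i => A o i * A o i) 1 fun i hi => mul_self_pos.2 (hnz i hi)
    simpa using this
  · intro hQ
    rw [sum_congr rfl (g := fun _ => (1 : ℤ)) fun i hi => ?_]
    · simp
    have h1 : A o i * A o i ≤ ∑ k ∈ Eᶜ, A o k * A o k :=
      single_le_sum (f := fun k => A o k * A o k) (fun k _ => mul_self_nonneg _) hi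
    have h2 := mul_self_pos.2 (hnz i hi)
    have h3 : A o i ≤ 1 ∧ -1 ≤ A o i := by constructor <;> nlinarith
    rcases Int.lt_trichotomy (A o i) 0 with h | h | h
    · rw [show A o i = -1 by omega]; rfl
    · exact absurd h (hnz i hi)
    · rw [show A o i = 1 by omega]; rfl
  · have h1 := hA o o
    rw [if_pos rfl, ← sum_add_sum_compl E, hEsum, hca, sum_congr rfl fun j _ => hcb j, sum_const,
      nsmul_eq_mul, card_univ] at h1
    rw [← hm1]
    push_cast
    linarith
  · intro r hr hc hn hQ
    obtain ⟨w, hw⟩ := card_eq_one.1 hn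
    rw [hw, sum_singleton] at hQ
    have hd : ∀ j : {j : J // j ≠ o}, r a * s + r (b j) * t j = 0 := fun j => by
      have h1 : ∑ i, r i * (A j i - A o i) = 0 := by
        simp only [mul_sub, sum_sub_distrib, hr, sub_self]
      rw [Fintype.sum_eq_add a (b j) (hbne j).symm fun i hi => by
        rw [hoff j i hi.1 hi.2, sub_self, mul_zero], hda, ← htdef] at h1
      exact h1
    have hAb : ∀ j, A o (b j) = -t j := fun j => by
      linear_combination t j * hrel j - A o (b j) * htt j - t j * hc
    have hAa : A o a = 0 := by linear_combination s * hc - A o a * hs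
    have hrb : ∀ j, r (b j) * A o (b j) = r a * s := fun j => by
      rw [hAb]; linear_combination (-1 : ℤ) * hd j
    have h0 := hr o
    rw [← sum_add_sum_compl E, hEsum, hw, sum_singleton, hAa, mul_zero, zero_add,
      sum_congr rfl fun j _ => hrb j, sum_const, nsmul_eq_mul, card_univ] at h0
    refine ⟨r a * s, ?_⟩
    have hrb2 : ∀ j, r (b j) * r (b j) = r a * s * (r a * s) := fun j => by
      linear_combination (r (b j) * t j - r a * s) * hd j - r (b j) * r (b j) * htt j
    rw [← sum_add_sum_compl E, hEsum, hw, sum_singleton, sum_congr rfl fun j _ => hrb2 j,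
      sum_const, nsmul_eq_mul, card_univ, ← hm1]
    push_cast
    linear_combination
      (-(r a * r a)) * hs + (r w * A o w - (Fintype.card {j : J // j ≠ o} : ℤ) * (r a * s)) * h0
        - r w * r w * hQ

/-- There are at most `e + m` coordinates. -/
theorem card_le_of_gram (hA : ∀ j j', ∑ i, A j i * A j' i = (if j = j' then (1 : ℤ) else 0) + (e : ℤ))
    (hne : ∀ i, ∃ j, A j i ≠ 0) [Nonempty J] : Fintype.card ι ≤ e + Fintype.card J := by
  classical
  by_cases hJ : 2 ≤ Fintype.card J
  · obtain ⟨c, n, Q, hk, hnQ, -, hbal, -⟩ := exists_shape hA hne hJ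
    have : 1 ≤ c * c + ((Fintype.card J : ℤ) - 1) * ((1 + c) * (1 + c)) := by
      have h2 : (1 : ℤ) ≤ (Fintype.card J : ℤ) - 1 := by omega
      by_cases hc : c = 0
      · subst hc; simpa using h2
      · have := mul_self_pos.2 hc
        nlinarith [mul_nonneg (zero_le_one.trans h2) (mul_self_nonneg (1 + c))]
    omega
  · obtain ⟨o⟩ : Nonempty J := inferInstance
    have hall : ∀ j, j = o := fun j => Fintype.card_le_one_iff.1 (by omega) j o
    have h1 := card_nsmul_le_sum (univ : Finset ι) (fun i => A o i * A o i) 1 fun i _ =>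
      mul_self_pos.2 (by obtain ⟨j, hj⟩ := hne i; rwa [hall j] at hj)
    rw [hA, if_pos rfl, nsmul_eq_mul, mul_one, card_univ] at h1
    have hpos : 0 < Fintype.card J := Fintype.card_pos
    omega

/-- For `e ≤ 3` there are `e + m` coordinates, up to the listed exceptions. -/
theorem card_eq_of_gram (hA : ∀ j j', ∑ i, A j i * A j' i = (if j = j' then (1 : ℤ) else 0) + (e : ℤ))
    (hne : ∀ i, ∃ j, A j i ≠ 0) [Nonempty J] (he : e ≤ 3) (hlt : Fintype.card J < Fintype.card ι)
    {r : ι → ℤ} (hr : ∀ j, ∑ i, r i * A j i = 0) :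
    Fintype.card ι = e + Fintype.card J ∨
      (e = 2 ∧ Fintype.card J = 3 ∧ Fintype.card ι = 4 ∧ ∃ f : ℤ, ∑ i, r i * r i = 7 * (f * f)) ∨
      (e = 3 ∧ (Fintype.card J = 3 ∨ Fintype.card J = 4)) := by
  classical
  by_cases hJ : 2 ≤ Fintype.card J
  · obtain ⟨c, n, Q, hk, hnQ, hQn, hbal, hex⟩ := exists_shape hA hne hJ
    have hm : (2 : ℤ) ≤ Fintype.card J := by exact_mod_cast hJ
    have he' : (e : ℤ) ≤ 3 := by exact_mod_cast he
    have hn1 : 1 ≤ n := by omega
    have hc1 : c ≤ 1 ∧ -1 ≤ c := by
      have : c * c ≤ 3 := by nlinarith [mul_self_nonneg (1 + c)]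
      constructor <;> nlinarith
    obtain rfl | rfl | rfl : c = -1 ∨ c = 0 ∨ c = 1 := by omega
    · norm_num at hbal
      exact Or.inl (by omega)
    · norm_num at hbal
      rcases (show Fintype.card J = 2 ∨ 3 ≤ Fintype.card J by omega) with h | h
      · exact Or.inl (by omega)
      · rcases (show e = 2 ∨ e = 3 by omega) with rfl | rfl
        · have h3 : Fintype.card J = 3 := by omega
          obtain ⟨f, hf⟩ := hex r hr rfl (by omega) (by omega)
          refine Or.inr (Or.inl ⟨rfl, h3, by omega, f, ?_⟩)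
          rw [hf, h3]; norm_num
        · exact Or.inr (Or.inr ⟨rfl, by omega⟩)
    · norm_num at hbal
      omega
  · obtain ⟨o⟩ : Nonempty J := inferInstance
    have hJ1 : Fintype.card J = 1 := by have := Fintype.card_pos (α := J); omega
    have hall : ∀ j, j = o := fun j => Fintype.card_le_one_iff.1 (le_of_eq hJ1) j o
    have hpos : ∀ i, 1 ≤ A o i * A o i := fun i => by
      obtain ⟨j, hj⟩ := hne i
      rw [hall j] at hj
      exact mul_self_pos.2 hj
    have hsum : ∑ i, A o i * A o i = 1 + (e : ℤ) := by rw [hA, if_pos rfl]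
    have hone : ∀ i, A o i * A o i = 1 := by
      intro i
      by_contra hi
      have h4 : 4 ≤ A o i * A o i := by
        have : A o i ≠ 1 ∧ A o i ≠ -1 ∧ A o i ≠ 0 :=
          ⟨fun h => hi (by rw [h]; rfl), fun h => hi (by rw [h]; rfl),
            fun h => by simpa [h] using hpos i⟩
        rcases (show 2 ≤ A o i ∨ A o i ≤ -2 by omega) with h | h <;> nlinarith
      obtain ⟨k, hk⟩ := Fintype.exists_ne_of_one_lt_card (by omega : 1 < Fintype.card ι) i
      have h2 : A o i * A o i + A o k * A o k ≤ ∑ l, A o l * A o l := by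
        rw [← sum_pair hk.symm (f := fun l => A o l * A o l)]
        exact sum_le_univ_sum_of_nonneg fun l => mul_self_nonneg _
      have := hpos k
      omega
    simp only [hone, sum_const, card_univ, nsmul_eq_mul, mul_one] at hsum
    exact Or.inl (by omega)

end CfsgLib.RealChar.FreeInertial
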