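import Cfsg.Agent.Lib.RealChar.FreeInertial.SRing
import Cfsg.Agent.Lib.RealChar.FreeInertial.Lattice
import Cfsg.Agent.Lib.CharTheory.Degree

/-!
# Counting from normalised generalised decomposition numbers

Rows of functions on a finite commutative `p`-group, each a local combination of linear
characters and rationally a scaled integral combination, whose columns have the orthogonality
relations of a free action of `E`, have at most `e + m` indices.
-/

set_option autoImplicit false
set_option linter.style.haveILetI false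
set_option linter.unusedSectionVars false

namespace CfsgLib.RealChar.FreeInertial

open Cfsg CfsgLib.Blocks Finset
open CfsgLib.BrauerPairs (sum_hom_units_apply sum_apply_dual conj_unit_apply dual_free)
open scoped ComplexConjugate

/-- The rational numbers inside `ℂ`. -/
noncomputable abbrev ratC : Subfield ℂ := (algebraMap ℚ ℂ).fieldRange

variable {Y : Type*} [CommGroup Y] [Fintype Y]

/-- Sums over the generators of a subgroup are rational. -/
theorem sum_generators_mem (l : Y →* ℂˣ) [DecidableEq (Subgroup Y)] (Q : Subgroup Y) :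
    ∑ v ∈ univ.filter (fun v : Y => Subgroup.zpowers v = Q), (l v : ℂ) ∈ ratC := by
  classical
  haveI := Fintype.ofFinite (Subgroup Y)
  induction hn : Nat.card Q using Nat.strong_induction_on generalizing Q with
  | _ n ih =>
    have htot : ∑ v ∈ univ.filter (fun v : Y => v ∈ Q), (l v : ℂ) ∈ ratC := by
      rw [sum_subtype (univ.filter fun v : Y => v ∈ Q) (p := fun v => v ∈ Q) (fun v => by simp)
        fun v => (l v : ℂ)]
      have h := sum_hom_units_apply (Y := Q) (l.comp Q.subtype)
      simp only [MonoidHom.comp_apply, Subgroup.coe_subtype] at h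
      rw [h]
      split_ifs
      · exact natCast_mem ratC _
      · exact zero_mem ratC
    rw [← sum_fiberwise (univ.filter fun v : Y => v ∈ Q) (fun v => Subgroup.zpowers v)] at htot
    rw [← add_sum_erase univ _ (mem_univ Q)] at htot
    have hrest : ∑ Q' ∈ univ.erase Q, ∑ v ∈ (univ.filter fun v : Y => v ∈ Q).filter
        (fun v => Subgroup.zpowers v = Q'), (l v : ℂ) ∈ ratC := by
      refine sum_mem fun Q' hQ' => ?_
      by_cases hle : Q' ≤ Q
      · have hlt : Nat.card Q' < n := by
          rw [← hn]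
          refine lt_of_le_of_ne (Subgroup.card_le_of_le hle) fun h => (mem_erase.1 hQ').1 ?_
          exact Subgroup.eq_of_le_of_card_ge hle h.ge
        have := ih _ hlt Q' rfl
        convert this using 2
        ext v
        simp only [mem_filter, mem_univ, true_and, and_iff_right_iff_imp]
        exact fun h => hle (h ▸ Subgroup.mem_zpowers v)
      · rw [filter_eq_empty_iff.2 fun v hv h => hle ?_, sum_empty]
        · exact zero_mem ratC
        · rw [← h]; exact Subgroup.zpowers_le.2 (mem_filter.1 hv).2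
    have := sub_mem htot hrest
    rw [add_sub_cancel_right] at this
    convert this using 2
    ext v
    simp only [mem_filter, mem_univ, true_and, iff_and_self]
    exact fun h => h ▸ Subgroup.mem_zpowers v

/-- Rational functions of the generated subgroup against linear characters. -/
theorem sum_rat_mul_mem (l : Y →* ℂˣ) (r : Y → ℚ)
    (hr : ∀ u v, Subgroup.zpowers u = Subgroup.zpowers v → r u = r v) :
    ∑ u : Y, (r u : ℂ) * (l u : ℂ) ∈ ratC := by
  classical
  haveI := Fintype.ofFinite (Subgroup Y)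
  rw [← sum_fiberwise univ (fun v : Y => Subgroup.zpowers v)]
  refine sum_mem fun Q _ => ?_
  by_cases hne : ∃ w, Subgroup.zpowers w = Q
  · obtain ⟨w, rfl⟩ := hne
    rw [sum_congr rfl fun v hv => show (r v : ℂ) * (l v : ℂ) = (r w : ℂ) * (l v : ℂ) by
      rw [hr v w (mem_filter.1 hv).2], ← mul_sum]
    exact mul_mem (RingHom.mem_fieldRange.2 ⟨r w, by simp⟩) (sum_generators_mem l _)
  · push Not at hne
    rw [filter_eq_empty_iff.2 fun v _ => hne v, sum_empty]
    exact zero_mem ratC

variable {M : Ideal AlgInt} [M.IsPrime] {p : ℕ} [hp : Fact p.Prime]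

/-- A rational number in the local ring with a `p`-power denominator is an integer. -/
theorem exists_int_of_pow_mul (hM : IsPModular p M) {x : ℂ} (hx : MemLocalRing M x) :
    ∀ (s : ℕ) (z : ℤ), (p : ℂ) ^ s * x = z → ∃ z' : ℤ, x = z'
  | 0, z, h => ⟨z, by simpa using h⟩
  | s + 1, z, h => by
    have hz : MemLocalIdeal M (z : ℂ) := by
      rw [← h, pow_succ, mul_comm ((p : ℂ) ^ s) (p : ℂ), mul_assoc]
      exact memLocalIdeal_mul_right ((memLocalIdeal_natCast_iff hM p).2 dvd_rfl)
        (memLocalRing_mul (by simpa using memLocalRing_natCast (M := M) (p ^ s)) hx)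
    obtain ⟨w, rfl⟩ := (memLocalIdeal_intCast_iff hM z).1 hz
    refine exists_int_of_pow_mul hM hx s w (mul_left_cancel₀
      (Nat.cast_ne_zero.2 hp.out.ne_zero : (p : ℂ) ≠ 0) ?_)
    rw [← mul_assoc, ← pow_succ', h]
    push_cast
    ring

variable [Fintype (Y →* ℂˣ)]

/-- The differences of the coefficients are integers. -/
theorem exists_int_coeff (hM : IsPModular p M) (hY : IsPGroup p Y) {g : Y → ℂ}
    (hint : ∀ u, u ≠ 1 → IsIntegral ℤ (g u))
    (hrat : ∃ (r : Y → ℚ) (n : (Y →* ℂˣ) → ℤ),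
      (∀ u v, Subgroup.zpowers u = Subgroup.zpowers v → r u = r v) ∧
      ∀ u, u ≠ 1 → g u = (r u : ℂ) * ∑ k, (n k : ℂ) * (k u : ℂ))
    (hS : InS M g) (l : Y →* ℂˣ) [DecidableEq Y] :
    ∃ z : ℤ, (Fintype.card Y : ℂ) * z = ∑ u ∈ univ.erase 1, g u * (conj (l u : ℂ) - 1) := by
  classical
  set T : ℂ := ∑ u ∈ univ.erase 1, g u * (conj (l u : ℂ) - 1) with hT
  set N : ℂ := (Fintype.card Y : ℂ) with hN
  have hN0 : N ≠ 0 := Nat.cast_ne_zero.2 Fintype.card_ne_zero
  have hTint : IsIntegral ℤ T := by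
    refine IsIntegral.sum _ fun u hu => (hint u (mem_erase.1 hu).1).mul ?_
    rw [conj_unit_apply]
    refine IsIntegral.sub (IsIntegral.of_pow (isOfFinOrder_of_finite u).orderOf_pos ?_)
      isIntegral_one
    rw [← Units.val_pow_eq_pow_val, ← map_pow, pow_orderOf_eq_one, map_one, Units.val_one]
    exact isIntegral_one
  have hTrat : T ∈ ratC := by
    obtain ⟨r, n, hr, hg⟩ := hrat
    have h1 : T = ∑ k, (n k : ℂ) *
        ((∑ u : Y, (r u : ℂ) * ((k * l⁻¹) u : ℂ)) - ∑ u : Y, (r u : ℂ) * (k u : ℂ)) := by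
      simp only [← sum_sub_distrib, mul_sum]
      rw [sum_comm, hT, sum_congr rfl fun u hu => by rw [hg u (mem_erase.1 hu).1, conj_unit_apply],
        ← sum_erase univ (a := (1 : Y)) (by simp)]
      refine sum_congr rfl fun u _ => ?_
      rw [mul_assoc, sum_mul, mul_sum]
      exact sum_congr rfl fun k _ => by simp only [MonoidHom.mul_apply, Units.val_mul]; ring
    rw [h1]
    exact sum_mem fun k _ => mul_mem (intCast_mem ratC _)
      (sub_mem (sum_rat_mul_mem _ r hr) (sum_rat_mul_mem _ r hr))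
  obtain ⟨q, hq⟩ := RingHom.mem_fieldRange.1 hTrat
  obtain ⟨z, hz⟩ := CharTheory.exists_int_of_isIntegral_ratCast (q := q) (by
    rw [show (q : ℂ) = T by rw [← hq]; simp]; exact hTint)
  have hloc : MemLocalRing M (N⁻¹ * T) := by
    obtain ⟨c, hc, hgc⟩ := hS
    have : T = N * (c l - c 1) := by
      rw [hT, sum_congr rfl fun u hu => by rw [hgc u (mem_erase.1 hu).1],
        sum_erase univ (a := (1 : Y)) (by simp)]
      simp only [mul_sub, mul_one, sum_sub_distrib, sum_mul]
      congr 1
      · rw [sum_comm, sum_eq_single l]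
        · simp [conj_unit_apply, mul_assoc, hN, mul_comm]
        · intro k _ hk
          rw [sum_congr rfl (g := fun u => c k * ((k * l⁻¹) u : ℂ))
            (fun u _ => by simp [conj_unit_apply, mul_assoc]), ← mul_sum, sum_hom_units_apply,
            if_neg (fun h => hk (mul_inv_eq_one.1 h)), mul_zero]
        · exact fun h => absurd (mem_univ l) h
      · rw [sum_comm, sum_eq_single (1 : Y →* ℂˣ)]
        · simp [hN, mul_comm]
        · intro k _ hk
          rw [← mul_sum, sum_hom_units_apply, if_neg hk, mul_zero]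
        · exact fun h => absurd (mem_univ _) h
    rw [this, inv_mul_cancel_left₀ hN0]
    exact (locRing M).sub_mem (hc l) (hc 1)
  obtain ⟨s, hs⟩ := IsPGroup.iff_card.1 hY
  have hsN : (p : ℂ) ^ s = N := by rw [hN, ← Nat.card_eq_fintype_card, hs]; norm_num
  obtain ⟨z', hz'⟩ := exists_int_of_pow_mul hM hloc s z (by
    rw [hsN, mul_inv_cancel_left₀ hN0, ← hq]
    rw [← hz]; simp)
  exact ⟨z', by rw [← hz', mul_inv_cancel_left₀ hN0]⟩

set_option maxHeartbeats 1000000 in
/-- The count. -/
theorem count_of_rows (hM : IsPModular p M) (hY : IsPGroup p Y) [Nontrivial Y] [DecidableEq Y]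
    (E : Subgroup (MulAut Y)) [Fintype E]
    (hfree : ∀ a ∈ E, ∀ y : Y, a y = y → y ≠ 1 → a = 1)
    {ι : Type*} [Fintype ι] [DecidableEq ι] (Gf : ι → Y → ℂ)
    (hint : ∀ χ u, u ≠ 1 → IsIntegral ℤ (Gf χ u))
    (hrat : ∀ χ, ∃ (r : Y → ℚ) (n : (Y →* ℂˣ) → ℤ),
      (∀ u v, Subgroup.zpowers u = Subgroup.zpowers v → r u = r v) ∧
      ∀ u, u ≠ 1 → Gf χ u = (r u : ℂ) * ∑ k, (n k : ℂ) * (k u : ℂ))
    (hS : ∀ χ, InS M (Gf χ))
    (horth : ∀ i j : Y, i ≠ 1 → j ≠ 1 → ∀ [Decidable (∃ a ∈ E, a i = j)],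
      ∑ χ, Gf χ i * conj (Gf χ j) = if ∃ a ∈ E, a i = j then (Fintype.card Y : ℂ) else 0)
    (hnz : ∀ χ, ∃ u, u ≠ 1 ∧ Gf χ u ≠ 0) :
    ∃ m : ℕ, m * Fintype.card E + 1 = Fintype.card Y ∧
      Fintype.card ι ≤ Fintype.card E + m ∧
      (Fintype.card E ≤ 3 → m < Fintype.card ι →
        ∀ r : ι → ℤ, (∀ u, u ≠ 1 → ∑ χ, (r χ : ℂ) * Gf χ u = 0) →
          Fintype.card ι = Fintype.card E + m ∨
          (Fintype.card E = 2 ∧ m = 3 ∧ Fintype.card ι = 4 ∧
            ∃ f : ℤ, ∑ χ, r χ * r χ = 7 * (f * f)) ∨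
          (Fintype.card E = 3 ∧ (m = 3 ∨ m = 4))) := by
  classical
  set N : ℂ := (Fintype.card Y : ℂ) with hN
  have hN0 : N ≠ 0 := Nat.cast_ne_zero.2 Fintype.card_ne_zero
  let W : Finset (MulAut Y) := (E : Set (MulAut Y)).toFinset
  have hWmem : ∀ a, a ∈ W ↔ a ∈ E := fun a => by simp [W]
  set e := Fintype.card E with he
  have hWcard : W.card = e := by simp [W, he]
  have hWfree : ∀ w ∈ W, ∀ w' ∈ W, w ≠ w' → ∀ y, w y = w' y → y = 1 := by
    intro w hw w' hw' hne y hy
    by_contra hy1
    refine hne (inv_mul_eq_one.1 (hfree (w'⁻¹ * w)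
      (E.mul_mem (E.inv_mem ((hWmem _).1 hw')) ((hWmem _).1 hw)) y ?_ hy1)).symm
    rw [MulAut.mul_apply, hy, ← MulAut.mul_apply, inv_mul_cancel, MulAut.one_apply]
  choose A hA using fun l χ => exists_int_coeff hM hY (hint χ) (hrat χ) (hS χ) l
  have hA1 : ∀ χ, A 1 χ = 0 := fun χ => by
    have h := hA 1 χ
    simp only [MonoidHom.one_apply, Units.val_one, map_one, sub_self, mul_zero,
      sum_const_zero] at h
    exact_mod_cast (mul_eq_zero.1 h).resolve_left (Nat.cast_ne_zero.2 Fintype.card_ne_zero)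
  let c : (Y →* ℂˣ) → (Y →* ℂˣ) → ℕ := fun l l' =>
    (W.filter fun w : MulAut Y => l'.comp w.toMonoidHom = l).card
  have hcor : ∀ i j : Y, i ≠ 1 → j ≠ 1 → ∑ χ, Gf χ i * conj (Gf χ j) =
      N * (W.filter fun w => w i = j).card := by
    intro i j hi hj
    rw [horth i j hi hj]
    split_ifs with h
    · obtain ⟨a, ha, haij⟩ := h
      rw [show (W.filter fun w => w i = j) = {a} by
        refine eq_singleton_iff_unique_mem.2
          ⟨mem_filter.2 ⟨(hWmem a).2 ha, haij⟩, fun w hw => ?_⟩
        obtain ⟨hw1, hw2⟩ := mem_filter.1 hw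
        by_contra hne
        exact hi (hWfree w hw1 a ((hWmem a).2 ha) hne i (hw2.trans haij.symm))]
      simp [hN]
    · rw [filter_eq_empty_iff.2 fun w hw hwij => h ⟨w, (hWmem w).1 hw, hwij⟩]
      simp
  have hgram : ∀ l l', l ≠ 1 → l' ≠ 1 → ∑ χ, A l χ * A l' χ = (c l l' : ℤ) + (e : ℤ) := by
    intro l l' hl hl'
    refine Int.cast_injective (α := ℂ) (mul_left_cancel₀ (mul_ne_zero hN0 hN0) ?_)
    push_cast
    rw [mul_sum, sum_congr rfl (g := fun χ => (N * (A l χ : ℂ)) * conj (N * (A l' χ : ℂ)))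
      (fun χ _ => by rw [map_mul, map_intCast, hN, map_natCast]; ring)]
    simp only [hN, hA, map_sum, map_mul, map_sub, map_one, Complex.conj_conj, sum_mul_sum]
    simp only [← hN]
    rw [sum_comm, sum_congr rfl fun i _ => sum_comm,
      sum_congr rfl (g := fun i => N * ∑ w ∈ W, (conj (l i : ℂ) - 1) * ((l' (w i) : ℂ) - 1))
        fun i hi => ?_]
    · rw [← mul_sum, mul_assoc, sum_comm]
      congr 1
      have hw : ∀ w ∈ W, ∑ i ∈ univ.erase 1, (conj (l i : ℂ) - 1) * ((l' (w i) : ℂ) - 1) =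
          N * ((if l'.comp (w : MulAut Y).toMonoidHom = l then (1 : ℂ) else 0) + 1) := by
        intro w _
        rw [sum_erase _ (by simp)]
        have hl'w : l'.comp (w : MulAut Y).toMonoidHom ≠ 1 := fun h => hl' (by
          ext y
          have := congrArg (fun g : Y →* ℂˣ => g (w.symm y)) h
          simpa using this)
        rw [sum_congr rfl (g := fun i => ((l⁻¹ * l'.comp w.toMonoidHom) i : ℂ) - (l⁻¹ i : ℂ) -
          (l'.comp w.toMonoidHom i : ℂ) + 1) (fun i _ => by
            rw [conj_unit_apply]; simp; ring)]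
        have hli : ¬ l⁻¹ = 1 := fun h => hl (by
          rw [← inv_inv l, h]; exact MonoidHom.ext fun y => by simp)
        simp only [sum_add_distrib, sum_sub_distrib, sum_hom_units_apply, hl'w, hli,
          if_false, sum_const, card_univ, nsmul_eq_mul, mul_one]
        by_cases hlw : l'.comp w.toMonoidHom = l
        · rw [if_pos (inv_mul_eq_one.2 hlw.symm), if_pos hlw]; simp [hN, mul_add]
        · rw [if_neg (fun h => hlw (inv_mul_eq_one.1 h).symm), if_neg hlw]; simp [hN, mul_add]
      rw [sum_congr rfl hw, ← mul_sum, sum_add_distrib, sum_boole, sum_const, nsmul_eq_mul, mul_one,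
        hWcard]
    · have hi' := (mem_erase.1 hi).1
      rw [sum_congr rfl (g := fun j => (∑ χ, Gf χ i * conj (Gf χ j)) *
        ((conj (l i : ℂ) - 1) * ((l' j : ℂ) - 1))) (fun j _ => by
          rw [sum_mul]; exact sum_congr rfl fun χ _ => by ring),
        sum_congr rfl fun j hj => by rw [hcor i j hi' (mem_erase.1 hj).1], mul_sum]
      simp only [card_filter, Nat.cast_sum, mul_sum, sum_mul]
      rw [sum_comm]
      refine sum_congr rfl fun w _ => ?_
      rw [sum_eq_single (w i)]
      · simp [mul_assoc]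
      · intro j _ hj; simp [Ne.symm hj]
      · intro h
        exact absurd (mem_erase.2 ⟨by simpa using hi', mem_univ _⟩) h
  have hc_le : ∀ l l', l' ≠ 1 → c l l' ≤ 1 := fun l l' hl' => card_le_one.2 fun w hw w' hw' => by
    by_contra hne
    exact hl' (dual_free (hWfree w (mem_filter.1 hw).1 w' (mem_filter.1 hw').1 hne)
      ((mem_filter.1 hw).2.trans (mem_filter.1 hw').2.symm))
  have hc_self : ∀ l, l ≠ 1 → c l l = 1 := fun l hl => le_antisymm (hc_le l l hl)
    (card_pos.2 ⟨1, mem_filter.2 ⟨(hWmem 1).2 E.one_mem, MonoidHom.ext fun _ => rfl⟩⟩)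
  let L : Finset (Y →* ℂˣ) := univ.erase 1
  have hiff : ∀ l l', l ≠ 1 → l' ≠ 1 → (A l = A l' ↔ c l l' = 1) := by
    intro l l' hl hl'
    constructor
    · intro h
      have h1 := hgram l l' hl hl'
      rw [← h, hgram l l hl hl, hc_self l hl] at h1
      omega
    · intro h
      have h1 : ∑ χ, (A l χ - A l' χ) * (A l χ - A l' χ) = 0 := by
        simp only [sub_mul, mul_sub, sum_sub_distrib, hgram l l hl hl, hgram l' l' hl' hl',
          hgram l l' hl hl', hc_self l hl, hc_self l' hl', h]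
        rw [show ∑ χ, A l' χ * A l χ = ∑ χ, A l χ * A l' χ from
          sum_congr rfl fun χ _ => mul_comm _ _, hgram l l' hl hl', h]
        ring
      funext χ
      exact sub_eq_zero.1 (mul_self_eq_zero.1
        ((sum_eq_zero_iff_of_nonneg fun χ _ => mul_self_nonneg _).1 h1 χ (mem_univ χ)))
  set Jset := L.image A with hJ
  let J := {f : ι → ℤ // f ∈ Jset}
  have hJrep : ∀ f : J, ∃ l, l ≠ 1 ∧ A l = f.1 := fun f => by
    obtain ⟨l, hl, hlf⟩ := mem_image.1 f.2
    exact ⟨l, (mem_erase.1 hl).1, hlf⟩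
  have hJgram : ∀ f g : J, ∑ χ, f.1 χ * g.1 χ = (if f = g then (1 : ℤ) else 0) + (e : ℤ) := by
    intro f g
    obtain ⟨l, hl, hlf⟩ := hJrep f
    obtain ⟨l', hl', hlg⟩ := hJrep g
    rw [← hlf, ← hlg, hgram l l' hl hl']
    by_cases hfg : f = g
    · rw [if_pos hfg, (hiff l l' hl hl').1 (by rw [hlf, hlg, hfg])]; rfl
    · have h1 := hc_le l l' hl'
      have h2 : c l l' ≠ 1 := fun h => hfg (Subtype.ext
        (by rw [← hlf, ← hlg]; exact (hiff l l' hl hl').2 h))
      rw [if_neg hfg, show c l l' = 0 by omega]; rfl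
  have hcount : Jset.card * e + 1 = Fintype.card Y := by
    have h1 : L.card = Jset.card * e := by
      rw [card_eq_sum_card_fiberwise (f := A) (t := Jset) fun l hl => mem_image_of_mem _ hl]
      refine sum_const_nat fun f hf => ?_
      obtain ⟨l', hl', rfl⟩ := mem_image.1 hf
      have hl'1 := (mem_erase.1 hl').1
      rw [← hWcard, ← card_image_of_injOn (s := W)
        (f := fun w : MulAut Y => l'.comp w.toMonoidHom)
        (fun w hw w' hw' h => by
          by_contra hne
          exact hl'1 (dual_free (hWfree w hw w' hw' hne) h))]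
      congr 1
      ext l
      simp only [mem_filter, mem_image, L, mem_erase, mem_univ, and_true]
      constructor
      · rintro ⟨hl1, hl⟩
        obtain ⟨w, hw⟩ := card_pos.1 (by rw [(hiff l l' hl1 hl'1).1 hl]; exact one_pos :
          0 < c l l')
        exact ⟨w, (mem_filter.1 hw).1, (mem_filter.1 hw).2⟩
      · rintro ⟨w, hw, rfl⟩
        have hl1 : l'.comp (w : MulAut Y).toMonoidHom ≠ 1 := fun h => hl'1 (by
          ext y
          have := congrArg (fun g : Y →* ℂˣ => g (w.symm y)) h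
          simpa using this)
        refine ⟨hl1, (hiff _ l' hl1 hl'1).2 (le_antisymm (hc_le _ l' hl'1) ?_)⟩
        exact card_pos.2 ⟨w, mem_filter.2 ⟨hw, rfl⟩⟩
    have hcardL : L.card + 1 = Fintype.card Y := by
      rw [card_erase_add_one (mem_univ _), card_univ, ← Nat.card_eq_fintype_card,
        CommGroup.card_monoidHom_of_hasEnoughRootsOfUnity Y ℂ, Nat.card_eq_fintype_card]
    omega
  haveI : Nonempty J := by
    obtain ⟨y, hy⟩ := exists_ne (1 : Y)
    obtain ⟨l, hl⟩ := CommGroup.exists_apply_ne_one_of_hasEnoughRootsOfUnity Y ℂ hy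
    exact ⟨⟨A l, mem_image_of_mem _ (mem_erase.2 ⟨fun h => hl (by simp [h]), mem_univ _⟩)⟩⟩
  have hnon : ∀ χ, ∃ f : J, f.1 χ ≠ 0 := by
    intro χ
    by_contra hno
    push Not at hno
    obtain ⟨i, hi, hdi⟩ := hnz χ
    have hA0 : ∀ l, A l χ = 0 := fun l => by
      by_cases hl : l = 1
      · rw [hl, hA1]
      · exact hno ⟨A l, mem_image_of_mem _ (mem_erase.2 ⟨hl, mem_univ _⟩)⟩
    have h1 : ∑ l : Y →* ℂˣ, (l i : ℂ) *
        ∑ u ∈ univ.erase 1, Gf χ u * (conj (l u : ℂ) - 1) = N * Gf χ i := by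
      simp only [mul_sum]
      rw [sum_comm, sum_eq_single i]
      · rw [sum_congr rfl (g := fun l : Y →* ℂˣ => Gf χ i * (1 - (l i : ℂ))) fun l _ => by
          rw [conj_unit_apply, mul_left_comm, mul_sub, mul_one, MonoidHom.inv_apply,
            ← Units.val_mul, mul_inv_cancel, Units.val_one],
          ← mul_sum, sum_sub_distrib, sum_apply_dual, if_neg hi, sum_const, card_univ,
          nsmul_eq_mul, mul_one, sub_zero, ← Nat.card_eq_fintype_card,
          CommGroup.card_monoidHom_of_hasEnoughRootsOfUnity Y ℂ, Nat.card_eq_fintype_card, mul_comm]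
      · intro u _ hu
        rw [sum_congr rfl (g := fun l : Y →* ℂˣ =>
          Gf χ u * ((l (i * u⁻¹) : ℂ) - (l i : ℂ))) fun l _ => by
            rw [conj_unit_apply, map_mul, map_inv, Units.val_mul, MonoidHom.inv_apply]; ring,
          ← mul_sum, sum_sub_distrib, sum_apply_dual, sum_apply_dual, if_neg hi,
          if_neg (fun h => hu (mul_inv_eq_one.1 h).symm), sub_zero, mul_zero]
      · exact fun h => absurd (mem_erase.2 ⟨hi, mem_univ _⟩) h
    rw [sum_eq_zero fun l _ => by rw [← hA l χ, hA0, Int.cast_zero, mul_zero, mul_zero]] at h1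
    exact hdi ((mul_eq_zero.1 h1.symm).resolve_left hN0)
  have hcardJ : Fintype.card J = Jset.card := Fintype.card_coe _
  refine ⟨Jset.card, hcount, ?_, fun he3 hlt r hr => ?_⟩
  · have := card_le_of_gram (A := fun f : J => f.1) hJgram hnon
    rwa [hcardJ] at this
  · have horthr : ∀ f : J, ∑ χ, r χ * f.1 χ = 0 := by
      intro f
      obtain ⟨l, -, hlf⟩ := hJrep f
      rw [← hlf]
      refine Int.cast_injective (α := ℂ) (mul_left_cancel₀ hN0 ?_)
      push_cast
      rw [mul_zero, mul_sum, sum_congr rfl (g := fun χ => (r χ : ℂ) * (N * (A l χ : ℂ)))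
        fun χ _ => by ring]
      simp only [hN, hA, mul_sum]
      rw [sum_comm]
      refine sum_eq_zero fun u hu => ?_
      rw [← zero_mul (conj (l u : ℂ) - 1), ← hr u (mem_erase.1 hu).1, sum_mul]
      exact sum_congr rfl fun χ _ => by ring
    have := card_eq_of_gram (A := fun f : J => f.1) hJgram hnon he3 (by rwa [hcardJ]) horthr
    rwa [hcardJ] at this

end CfsgLib.RealChar.FreeInertial
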