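import Cfsg.Agent.Lib.RealChar.FreeInertial.Mult
import Cfsg.Agent.Lib.RealChar.FreeInertial.Choice

/-!
# The data of the normalisation

At every nontrivial subgroup of the defect group the values at the Brauer image of the chosen
idempotent are unit multiples of a root of absolute value one. The products over the sets of
subgroups of order `p` give the function of absolute value one that clears the multiplicities up
to squares.
-/

set_option autoImplicit false
set_option linter.style.haveILetI false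
set_option linter.unusedSectionVars false

noncomputable section

namespace CfsgLib.RealChar.FreeInertial

open Cfsg CfsgLib.Blocks MonoidAlgebra CfsgLib.BrauerPairs
open CfsgLib.BlockStar (val chiSum IsPrimIdem)
open CfsgLib.BlockSections (belowBlock belowBlock_spec)
open CfsgLib.BrauerCharacters (cenElem commute_cenElem blockFinset mem_blockFinset)
open scoped ComplexConjugate

/-- The values are congruent to the value at the identity. -/
theorem IntComb.congr_one {Y : Type*} [CommGroup Y] [Fintype Y] [Fintype (Y →* ℂˣ)]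
    {M : Ideal AlgInt} [M.IsPrime] {p : ℕ} [Fact p.Prime] (hM : IsPModular p M)
    (hY : IsPGroup p Y) {f : Y → ℂ} (hf : IntComb f) (v : Y) :
    MemLocalIdeal M (f v - f 1) := by
  obtain ⟨n, hn⟩ := hf
  rw [hn, hn, ← Finset.sum_sub_distrib]
  refine memLocalIdeal_sum fun l _ => ?_
  rw [map_one, Units.val_one, ← mul_sub]
  exact memLocalIdeal_mul_left (memLocalRing_intCast _) (memLocalIdeal_apply_sub_one hM hY l v)

section Toggle

variable {α : Type*} [DecidableEq α]

/-- Products over the odd and over the even subsets agree when one point can be toggled. -/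
theorem prod_odd_eq_prod_even {R : Type*} [CommMonoid R] (Λ : Finset α) {L : α} (hL : L ∈ Λ)
    (a : Finset α → R) (ha : ∀ X, L ∉ X → a (insert L X) = a X) :
    ∏ X ∈ Λ.powerset.filter (fun X => Odd X.card), a X =
      ∏ X ∈ Λ.powerset.filter (fun X => ¬ Odd X.card), a X := by
  set t : Finset α → Finset α := fun X => if L ∈ X then X.erase L else insert L X with ht
  have htt : ∀ X, t (t X) = X := by
    intro X
    by_cases h : L ∈ X
    · simp [ht, h, Finset.insert_erase h]
    · simp [ht, h]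
  have hmem : ∀ X ∈ Λ.powerset, t X ∈ Λ.powerset := by
    intro X hX
    rw [Finset.mem_powerset] at hX ⊢
    simp only [ht]
    split_ifs
    · exact (Finset.erase_subset _ _).trans hX
    · exact Finset.insert_subset hL hX
  have hpar : ∀ X, Odd (t X).card ↔ ¬ Odd X.card := by
    intro X
    simp only [ht]
    split_ifs with h
    · rw [← Finset.card_erase_add_one h]; simp [Nat.odd_add_one]
    · rw [Finset.card_insert_of_notMem h, Nat.odd_add_one]
  refine Finset.prod_nbij' t t (fun X hX => ?_) (fun X hX => ?_) (fun X _ => htt X)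
    (fun X _ => htt X) (fun X _ => ?_)
  · obtain ⟨h1, h2⟩ := Finset.mem_filter.1 hX
    exact Finset.mem_filter.2 ⟨hmem X h1, fun h => (hpar X).1 h h2⟩
  · obtain ⟨h1, h2⟩ := Finset.mem_filter.1 hX
    exact Finset.mem_filter.2 ⟨hmem X h1, (hpar X).2 h2⟩
  · simp only [ht]
    split_ifs with h
    · conv_lhs => rw [← Finset.insert_erase h]
      exact ha _ (Finset.notMem_erase L X)
    · exact (ha X h).symm

end Toggle

variable {G : Type*} [Group G] [Fintype G] [∀ y : G, Fintype (Subgroup.centralizer ({y} : Set G))]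
  {p : ℕ} [Fact p.Prime] {M : Ideal AlgInt} [M.IsPrime]
  [CharP (Res M) p] [IsAlgClosed (Res M)] {B : Set (IrrCharacter G)} {P : Subgroup G}
  {e0 : MonoidAlgebra (Res M) G} (hM : IsPModular p M) (hB : IsPBlock M B)
  (hmax : IsMaxPair p (⊤ : Subgroup G) (redElem M (blockCoeff B)) P e0)
  (hab : ∀ x ∈ P, ∀ y ∈ P, x * y = y * x)
  (hfree : ∀ t ∈ pairStab (⊤ : Subgroup G) P e0, ∀ u ∈ P, u ≠ 1 → t * u * t⁻¹ = u →
    t ∈ Subgroup.centralizer (P : Set G))
  {i : MonoidAlgebra (Res M) G} (hi : IsPrimIdem P i) (h0 : brau P i * e0 ≠ 0)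
  {Y : Type*} [CommGroup Y] [Fintype Y] [Fintype (Y →* ℂˣ)] {ι : Y →* G}
  (hι : ∀ v, ι v ∈ P) (hinj : Function.Injective ι)
include hM hB hmax hab hfree hi h0 hι hinj

/-- The values in `G` are the decomposition numbers times the multiplicities. -/
theorem global_data (χ : IrrCharacter G) :
    IntComb (fun v => val χ (ι v) i) ∧ ∀ v : Y, v ≠ 1 → val χ (ι v) i =
      rowD (M := M) p P e0 χ (ι v) * multR p P e0 i (Subgroup.zpowers (ι v)) := by
  have hrange : (MonoidHom.id G).range = Subgroup.centralizer ((⊥ : Subgroup G) : Set G) := by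
    rw [MonoidHom.range_eq_top.2 Function.surjective_id]
    exact (eq_top_iff.2 fun t _ => Subgroup.mem_centralizer_iff.2 fun u hu => by
      rw [Subgroup.mem_bot.1 hu, one_mul, mul_one]).symm
  have hj : mapG (MonoidHom.id G) i = brau (⊥ : Subgroup G) i := by
    rw [mapG_id]
    exact (trunc_eq_self fun t ht => absurd (Subgroup.mem_centralizer_iff.2 fun u hu => by
      rw [Subgroup.mem_bot.1 hu, one_mul, mul_one]) ht).symm
  refine ⟨intComb_val_level hM hmax hi hab (φ := MonoidHom.id G) (fun _ _ h => h) bot_le hrange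
    (Subgroup.map_id P) hj ι hι χ, fun v hv => ?_⟩
  have h := val_eq_rowD_mul hM hmax hi hab h0 (φ := MonoidHom.id G) (fun _ _ h => h) bot_le hrange
    hB hmax (Subgroup.map_id P) (mapG_id e0) hfree hj χ (hι v) (fun h => hv (hinj (by simpa using h)))
  rwa [MonoidHom.id_apply, bot_sup_eq] at h

/-- The values at the level of a nontrivial subgroup. -/
theorem exists_level_data {Q : Subgroup G} (hQ : Q ≤ P) (hQ1 : Q ≠ ⊥) :
    ∃ D δ : Y → ℂ, IntComb δ ∧ δ 1 = multR p P e0 i Q ∧ ∀ v, v ≠ 1 →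
      IsIntegral ℤ (D v) ∧ D v * conj (D v) = 1 ∧
        δ v = D v * multR p P e0 i (Q ⊔ Subgroup.zpowers (ι v)) := by
  classical
  obtain ⟨w, hw, hw1⟩ := Subgroup.ne_bot_iff_exists_ne_one.1 hQ1 |> fun ⟨⟨w, hw⟩, h⟩ =>
    (⟨w, hw, fun h' => h (Subtype.ext h')⟩ : ∃ w, w ∈ Q ∧ w ≠ 1)
  have hfix : ∀ t ∈ pairStab (⊤ : Subgroup G) P e0, t ∈ Subgroup.centralizer (Q : Set G) →
      t ∈ Subgroup.centralizer (P : Set G) := fun t ht htK => hfree t ht w (hQ hw) hw1 (by
    rw [← Subgroup.mem_centralizer_iff.1 htK w hw, mul_inv_cancel_right])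
  set K := Subgroup.centralizer (Q : Set G) with hKdef
  obtain ⟨b, e', hbl, hle, he', hPK, hmax', hnil, hall, hcard⟩ :=
    exists_nilp_below hM hB hmax hab hQ (K := K) hKdef hfix
  haveI : Fintype K := Fintype.ofFinite _
  haveI : ∀ y : K, Fintype (Subgroup.centralizer ({y} : Set K)) := fun y => Fintype.ofFinite _
  haveI := Fintype.ofFinite (IrrCharacter K)
  set P' := P.subgroupOf K with hP'def
  have hP' : P'.map K.subtype = P := Subgroup.map_subgroupOf_eq_of_le hPK
  have hab' : ∀ x ∈ P', ∀ y ∈ P', x * y = y * x := fun x hx y hy =>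
    Subtype.ext (hab x hx y hy)
  have hfree' : ∀ t ∈ pairStab (⊤ : Subgroup K) P' e', ∀ u ∈ P', u ≠ 1 → t * u * t⁻¹ = u →
      t ∈ Subgroup.centralizer (P' : Set K) := by
    intro t ht _ _ _ _
    rw [← mem_pairStab_map_iff K.subtype_injective, map_top_subtype, hP', he'] at ht
    obtain ⟨-, h1, h2⟩ := mem_pairStab.1 ht
    have := hfix t (mem_pairStab.2 ⟨Subgroup.mem_top _, h1, h2⟩) t.2
    exact Subgroup.mem_centralizer_iff.2 fun v hv =>
      Subtype.ext (Subgroup.mem_centralizer_iff.1 this v hv)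
  set j := pull K (brau Q i) with hjdef
  have hj : mapG K.subtype j = brau Q i := mapG_pull (trunc_mem_supp _ _)
  let ι' : Y →* K := ι.codRestrict K fun v => hPK (hι v)
  have hι' : ∀ v, ι' v ∈ P' := fun v => hι v
  obtain ⟨ξ, hξ⟩ := isPBlock_nonempty hbl
  refine ⟨fun v => rowD (M := M) p P' e' ξ (ι' v), fun v => val ξ (ι' v) j, ?_, ?_, fun v hv => ?_⟩
  · exact intComb_val_level hM hmax hi hab K.subtype_injective hQ K.range_subtype hP' hj ι' hι' ξ
  · simp only [map_one]
    exact multR_eq hM hmax hi hQ hbl hle hall hξ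
  have hu1 : ι' v ≠ 1 := fun h => hv (hinj (by simpa [ι'] using congrArg Subtype.val h))
  refine ⟨isIntegral_rowD ξ _, ?_,
    val_eq_rowD_mul hM hmax hi hab h0 K.subtype_injective hQ K.range_subtype hbl hmax' hP' he'
      hfree' hj ξ (hι' v) hu1⟩
  -- the row has absolute value one
  have hu := hι' v
  set u := ι' v with hudef
  obtain ⟨χq, ψ, F⟩ := exists_starFamily hM hbl hmax' hnil hab'
  obtain ⟨hall2, -⟩ := below_spec hM hbl hmax' hab' hfree' hu hu1
  obtain ⟨hb2, -, -⟩ := belowBlock_spec hM hbl hmax' hu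
  obtain ⟨ξ0, hξ0⟩ := isPBlock_nonempty hb2
  obtain ⟨n, hn⟩ := BlockSections.isPElem_of_mem hM hbl hmax' hu
  have hpp : IsPPart p u u := ⟨1, mul_one u, Commute.one_right u, ⟨n, hn⟩,
    by rw [orderOf_one]; exact (Fact.out : p.Prime).not_dvd_one⟩
  have hnorm : ∀ η ∈ b, rowD (M := M) p P' e' η u * conj (rowD (M := M) p P' e' η u) =
      rowD (M := M) p P' e' χq u * conj (rowD (M := M) p P' e' χq u) := by
    intro η hη
    obtain ⟨lam, rfl⟩ := F.surj η hη
    have h := F.val_below lam hu hpp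
    have key := fun η' : IrrCharacter K =>
      val_subIdem_eq_rowVal (M := M) _ hb2 hall2 hξ0 η' (commute_cenElem u)
    have h' : rowD (M := M) p P' e' (ψ lam) u *
          (ξ0 : Subgroup.centralizer ({u} : Set K) → ℂ) 1 =
        ((lam ⟨u, hu⟩ : ℂ) * rowD (M := M) p P' e' χq u) *
          (ξ0 : Subgroup.centralizer ({u} : Set K) → ℂ) 1 := by
      rw [mul_assoc]
      exact (key (ψ lam)).symm.trans (h.trans (congrArg _ (key χq)))
    rw [mul_right_cancel₀ (CharTheory.apply_one_ne_zero_of_isIrr ξ0.2) h', map_mul,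
      mul_mul_mul_comm, Complex.mul_conj' ((lam ⟨u, hu⟩ : ℂˣ) : ℂ),
      CharTheory.norm_eq_one_of_pow_eq_one' (isOfFinOrder_of_finite (⟨u, hu⟩ : P')).orderOf_pos.ne'
        (by rw [← Units.val_pow_eq_pow_val, ← map_pow, pow_orderOf_eq_one, map_one, Units.val_one])]
    simp
  have hsum := sum_rowD_mul_conj_self hM hbl hmax' hab' hfree' hu hu1
  rw [← Finset.sum_subset (Finset.subset_univ (blockFinset b)) (fun η _ hη => by
      rw [rowD_eq_zero_of_notMem hM hbl hmax' hab' hfree' hu hu1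
        (fun h => hη (mem_blockFinset.2 h)), zero_mul]),
    Finset.sum_congr rfl fun η hη => hnorm η (mem_blockFinset.1 hη), Finset.sum_const,
    nsmul_eq_mul, BrauerCharacters.card_blockFinset, hcard, hP'def,
    Nat.card_congr (Subgroup.subgroupOfEquivOfLe hPK).toEquiv] at hsum
  rw [← hP'def] at hsum
  show rowD (M := M) p P' e' ξ u * conj (rowD (M := M) p P' e' ξ u) = 1
  rw [hnorm ξ hξ]
  exact mul_left_cancel₀ (Nat.cast_ne_zero.2 (Nat.card_pos (α := P)).ne')
    (hsum.trans (mul_one _).symm)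

variable {χ0 : IrrCharacter G} (hv0 : ¬ MemLocalIdeal M (val χ0 1 i))
  (hsurj : ∀ x ∈ P, ∃ v, ι v = x)
include hv0

/-- The multiplicities at cyclic subgroups and the row of the chosen character are units. -/
theorem global_units {v : Y} (hY : IsPGroup p Y) (hv : v ≠ 1) :
    ¬ MemLocalIdeal M (rowD (M := M) p P e0 χ0 (ι v)) ∧
      ¬ MemLocalIdeal M (multR p P e0 i (Subgroup.zpowers (ι v))) := by
  obtain ⟨hint, hval⟩ := global_data hM hB hmax hab hfree hi h0 hι hinj χ0
  obtain ⟨n, hn⟩ := exists_int_multR hM hmax hi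
    (R := Subgroup.zpowers (ι v)) (Subgroup.zpowers_le.2 (hι v))
  have hc := hint.congr_one hM hY v
  simp only [map_one] at hc
  have hu : ¬ MemLocalIdeal M (val χ0 (ι v) i) := fun h => hv0 (by
    have h' := memLocalIdeal_sub h hc
    rwa [sub_sub_cancel] at h')
  rw [hval v hv, memLocalIdeal_mul_iff (memLocalRing_of_isIntegral (isIntegral_rowD _ _))
    (by rw [hn]; exact memLocalRing_intCast _)] at hu
  exact not_or.1 hu

include hsurj

/-- Every multiplicity at a nontrivial subgroup is a unit. -/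
theorem multR_unit (hY : IsPGroup p Y) {R : Subgroup G} (hR : R ≤ P) (hR1 : R ≠ ⊥) :
    ¬ MemLocalIdeal M (multR p P e0 i R) := by
  classical
  suffices h : ∀ s : Finset Y, (∀ v ∈ s, v ≠ 1) → s.Nonempty →
      ¬ MemLocalIdeal M (multR p P e0 i (s.sup fun v => Subgroup.zpowers (ι v))) by
    set s : Finset Y := Finset.univ.filter fun v => v ≠ 1 ∧ ι v ∈ R with hs
    have hsup : (s.sup fun v => Subgroup.zpowers (ι v)) = R := by
      refine le_antisymm (Finset.sup_le fun v hv =>
        Subgroup.zpowers_le.2 (Finset.mem_filter.1 hv).2.2) fun x hx => ?_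
      obtain ⟨v, rfl⟩ := hsurj x (hR hx)
      rcases eq_or_ne v 1 with rfl | hv
      · rw [map_one]; exact one_mem _
      · exact Finset.le_sup (f := fun v => Subgroup.zpowers (ι v))
          (Finset.mem_filter.2 ⟨Finset.mem_univ _, hv, hx⟩) (Subgroup.mem_zpowers _)
    have hne : s.Nonempty := Finset.nonempty_iff_ne_empty.2 fun h => hR1 (by
      rw [← hsup, h, Finset.sup_empty])
    rw [← hsup]
    exact h s (fun v hv => (Finset.mem_filter.1 hv).2.1) hne
  intro s
  induction s using Finset.induction_on with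
  | empty => exact fun _ h => absurd h Finset.not_nonempty_empty
  | insert a s ha ih =>
    intro hall _
    have ha1 := hall a (Finset.mem_insert_self _ _)
    rw [Finset.sup_insert]
    rcases s.eq_empty_or_nonempty with rfl | hs
    · rw [Finset.sup_empty, sup_bot_eq]
      exact (global_units hM hB hmax hab hfree hi h0 hι hinj hv0 hY ha1).2
    have hQu := ih (fun v hv => hall v (Finset.mem_insert_of_mem hv)) hs
    set Q := s.sup fun v => Subgroup.zpowers (ι v) with hQdef
    have hQ : Q ≤ P := Finset.sup_le fun v _ => Subgroup.zpowers_le.2 (hι v)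
    have hQ1 : Q ≠ ⊥ := fun h => by
      obtain ⟨b, hb⟩ := hs
      refine hall b (Finset.mem_insert_of_mem hb) (hinj ?_)
      rw [map_one, ← Subgroup.mem_bot, ← h]
      exact Finset.le_sup (f := fun v => Subgroup.zpowers (ι v)) hb (Subgroup.mem_zpowers _)
    obtain ⟨D, δ, hδ, hδ1, hδv⟩ := exists_level_data hM hB hmax hab hfree hi h0 hι hinj hQ hQ1
    obtain ⟨hD, -, hval⟩ := hδv a ha1
    rw [sup_comm]
    intro h
    refine hQu ?_
    have hc := hδ.congr_one hM hY a
    rw [hval, hδ1] at hc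
    have h' := memLocalIdeal_sub (memLocalIdeal_mul_left (memLocalRing_of_isIntegral hD) h) hc
    rwa [sub_sub_cancel] at h'

/-- The inputs of the multiplier. -/
theorem exists_normal_data (hY : IsPGroup p Y) :
    ∃ (N nb : Y → ℤ) (ρ C : Y → ℂ),
      (∀ v, v ≠ 1 → ¬ (p : ℤ) ∣ N v) ∧ (∀ v, v ≠ 1 → ¬ (p : ℤ) ∣ nb v) ∧
      (∀ u v, Subgroup.zpowers u = Subgroup.zpowers v → N u = N v) ∧
      (∀ u v, Subgroup.zpowers u = Subgroup.zpowers v → nb u = nb v) ∧
      (∀ χ : IrrCharacter G, ∃ d : Y → ℂ, IntComb d ∧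
        ∀ v, v ≠ 1 → rowD (M := M) p P e0 χ (ι v) * (N v : ℂ) = d v) ∧
      InS M (fun v => (nb v : ℂ) ^ 2) ∧ IntComb C ∧ (∀ v, v ≠ 1 → IsIntegral ℤ (ρ v)) ∧
      (∀ v, v ≠ 1 → ρ v * conj (ρ v) = 1) ∧
      ∀ v, v ≠ 1 → ρ v * ((N v : ℂ) * (nb v : ℂ) ^ 2) = C v := by
  classical
  haveI := Fintype.ofFinite (Subgroup G)
  have hp : p.Prime := Fact.out
  -- integer multiplicities
  have hint : ∀ R : Subgroup G, ∃ n : ℤ, R ≤ P → multR p P e0 i R = n := fun R => by
    by_cases hR : R ≤ P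
    · exact (exists_int_multR hM hmax hi hR).imp fun n hn _ => hn
    · exact ⟨0, fun h => absurd h hR⟩
  choose nR hnR using hint
  set Λ : Finset (Subgroup G) :=
    Finset.univ.filter fun L => L ≤ P ∧ Nat.card L = p with hΛ
  have hsupP : ∀ X ∈ Λ.powerset, X.sup id ≤ P := fun X hX =>
    Finset.sup_le fun L hL => (Finset.mem_filter.1 (Finset.mem_powerset.1 hX hL)).2.1
  have hsupne : ∀ X ∈ Λ.powerset, X.Nonempty → X.sup id ≠ ⊥ := by
    rintro X hX ⟨L, hL⟩ h
    have hLb : L = ⊥ := le_bot_iff.1 (h ▸ Finset.le_sup (f := id) hL)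
    have := (Finset.mem_filter.1 (Finset.mem_powerset.1 hX hL)).2.2
    rw [hLb, Subgroup.card_bot] at this
    exact hp.one_lt.ne this
  have hlev : ∀ X : Finset (Subgroup G), ∃ D δ : Y → ℂ, X ∈ Λ.powerset → X.Nonempty →
      (IntComb δ ∧ ∀ v, v ≠ 1 → IsIntegral ℤ (D v) ∧ D v * conj (D v) = 1 ∧
        δ v = D v * multR p P e0 i (X.sup id ⊔ Subgroup.zpowers (ι v))) := by
    intro X
    by_cases h : X ∈ Λ.powerset ∧ X.Nonempty
    · obtain ⟨D, δ, h1, -, h2⟩ := exists_level_data hM hB hmax hab hfree hi h0 hι hinj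
        (hsupP X h.1) (hsupne X h.1 h.2)
      exact ⟨D, δ, fun _ _ => ⟨h1, h2⟩⟩
    · exact ⟨0, 0, fun h1 h2 => absurd ⟨h1, h2⟩ h⟩
  choose D δ hD using hlev
  set a : Finset (Subgroup G) → Y → ℤ := fun X v => nR (X.sup id ⊔ Subgroup.zpowers (ι v)) with ha
  have haP : ∀ X ∈ Λ.powerset, ∀ v, multR p P e0 i (X.sup id ⊔ Subgroup.zpowers (ι v)) = a X v :=
    fun X hX v => hnR _ (sup_le (hsupP X hX) (Subgroup.zpowers_le.2 (hι v)))
  set Od : Finset (Finset (Subgroup G)) := Λ.powerset.filter fun X => Odd X.card with hOd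
  set Ev : Finset (Finset (Subgroup G)) :=
    (Λ.powerset.filter fun X => ¬ Odd X.card).erase ∅ with hEv
  have hOdm : ∀ X ∈ Od, X ∈ Λ.powerset ∧ X.Nonempty := fun X hX =>
    ⟨(Finset.mem_filter.1 hX).1,
      Finset.card_pos.1 (Finset.mem_filter.1 hX).2.pos⟩
  have hEvm : ∀ X ∈ Ev, X ∈ Λ.powerset ∧ X.Nonempty := fun X hX =>
    ⟨(Finset.mem_filter.1 (Finset.mem_erase.1 hX).2).1,
      Finset.nonempty_iff_ne_empty.2 (Finset.mem_erase.1 hX).1⟩
  have hunit : ∀ X ∈ Λ.powerset, ∀ v, v ≠ 1 → ¬ (p : ℤ) ∣ a X v := by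
    intro X hX v hv h
    refine multR_unit hM hB hmax hab hfree hi h0 hι hinj hv0 hsurj hY
      (sup_le (hsupP X hX) (Subgroup.zpowers_le.2 (hι v))) (fun hb => hv (hinj ?_))
      (by rw [haP X hX v]; exact (memLocalIdeal_intCast_iff hM _).2 h)
    rw [map_one, ← Subgroup.mem_bot, ← hb]
    exact SetLike.le_def.1 le_sup_right (Subgroup.mem_zpowers _)
  have hgen : ∀ X, ∀ u v, Subgroup.zpowers u = Subgroup.zpowers v → a X u = a X v := by
    intro X u v huv
    simp only [ha, ← MonoidHom.map_zpowers, huv]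
  set N : Y → ℤ := fun v => a ∅ v with hN
  set nb : Y → ℤ := fun v => ∏ X ∈ Ev, a X v with hnb
  set Cf : Y → ℂ := fun v => (∏ X ∈ Od, δ X v) * conj (∏ X ∈ Ev, δ X v) with hC
  set ρ : Y → ℂ := fun v => (∏ X ∈ Od, D X v) * conj (∏ X ∈ Ev, D X v) with hρ
  have hδprod : ∀ (S : Finset (Finset (Subgroup G))), (∀ X ∈ S, X ∈ Λ.powerset ∧ X.Nonempty) →
      ∀ v, v ≠ 1 → ∏ X ∈ S, δ X v = (∏ X ∈ S, D X v) * ((∏ X ∈ S, a X v : ℤ) : ℂ) := by
    intro S hS v hv
    push_cast
    rw [← Finset.prod_mul_distrib]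
    refine Finset.prod_congr rfl fun X hX => ?_
    rw [((hD X (hS X hX).1 (hS X hX).2).2 v hv).2.2, haP X (hS X hX).1 v]
  have hDprod : ∀ (S : Finset (Finset (Subgroup G))), (∀ X ∈ S, X ∈ Λ.powerset ∧ X.Nonempty) →
      ∀ v, v ≠ 1 → (∏ X ∈ S, D X v) * conj (∏ X ∈ S, D X v) = 1 := by
    intro S hS v hv
    rw [map_prod, ← Finset.prod_mul_distrib]
    exact Finset.prod_eq_one fun X hX => ((hD X (hS X hX).1 (hS X hX).2).2 v hv).2.1
  have hEint : IntComb fun v => ∏ X ∈ Ev, δ X v :=
    IntComb.prod fun X hX => (hD X (hEvm X hX).1 (hEvm X hX).2).1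
  refine ⟨N, nb, ρ, Cf, fun v hv => hunit ∅ (Finset.empty_mem_powerset _) v hv,
    fun v hv h => ?_, hgen ∅, fun u v huv => Finset.prod_congr rfl fun X _ => hgen X u v huv,
    fun χ => ?_, ?_, ?_, fun v hv => ?_, fun v hv => ?_, fun v hv => ?_⟩
  · obtain ⟨X, hX, hdiv⟩ := (Prime.dvd_finsetProd_iff
      (Nat.prime_iff_prime_int.1 hp) _).1 h
    exact hunit X (hEvm X hX).1 v hv hdiv
  · obtain ⟨h1, h2⟩ := global_data hM hB hmax hab hfree hi h0 hι hinj χ
    refine ⟨_, h1, fun v hv => ?_⟩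
    rw [h2 v hv]
    congr 1
    show (a ∅ v : ℂ) = _
    rw [← haP ∅ (Finset.empty_mem_powerset _) v, Finset.sup_empty, bot_sup_eq]
  · refine (hEint.inS.mul hEint.conj.inS).congr fun v hv => ?_
    rw [hδprod Ev hEvm v hv, map_mul, map_intCast, mul_mul_mul_comm, hDprod Ev hEvm v hv, one_mul,
      sq]
  · exact (IntComb.prod fun X hX => (hD X (hOdm X hX).1 (hOdm X hX).2).1).mul hEint.conj
  · exact (IsIntegral.prod _ fun X hX => ((hD X (hOdm X hX).1 (hOdm X hX).2).2 v hv).1).mul
      (map_isIntegral_int (starRingEnd ℂ)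
        (IsIntegral.prod _ fun X hX => ((hD X (hEvm X hX).1 (hEvm X hX).2).2 v hv).1))
  · simp only [hρ, map_mul, Complex.conj_conj]
    rw [mul_mul_mul_comm, hDprod Od hOdm v hv, mul_comm (conj _), hDprod Ev hEvm v hv, mul_one]
  · -- a subgroup of order `p` below `v`
    have hg1 : ι v ≠ 1 := fun h => hv (hinj (h.trans (map_one ι).symm))
    obtain ⟨k, hk⟩ := IsPGroup.iff_card.1
      (hmax.1.1.1.to_le (Subgroup.zpowers_le.2 (hι v)))
    rcases k with _ | k
    · rw [Nat.card_zpowers, pow_zero, orderOf_eq_one_iff] at hk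
      exact absurd hk hg1
    rw [Nat.card_zpowers] at hk
    set L := Subgroup.zpowers (ι v ^ (p ^ k)) with hL
    have hLz : L ≤ Subgroup.zpowers (ι v) := Subgroup.zpowers_le.2 (Subgroup.npow_mem_zpowers _ _)
    have hLΛ : L ∈ Λ := by
      refine Finset.mem_filter.2 ⟨Finset.mem_univ _, hLz.trans (Subgroup.zpowers_le.2 (hι v)), ?_⟩
      rw [hL, Nat.card_zpowers, orderOf_pow, hk,
        Nat.gcd_eq_right (pow_dvd_pow p (Nat.le_succ k)), pow_succ,
        Nat.mul_div_cancel_left _ (pow_pos hp.pos k)]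
    have htog : ∏ X ∈ Od, a X v = N v * nb v := by
      rw [hOd, prod_odd_eq_prod_even Λ hLΛ (fun X => a X v) fun X hX => ?_]
      · rw [hN, hnb, hEv]
        exact (Finset.mul_prod_erase _ (fun X => a X v)
          (Finset.mem_filter.2 ⟨Finset.empty_mem_powerset _, by simp⟩)).symm
      · simp only [ha, Finset.sup_insert, id]
        congr 1
        rw [sup_comm L, sup_assoc, sup_eq_right.2 hLz]
    simp only [hC, hρ]
    rw [hδprod Od hOdm v hv, hδprod Ev hEvm v hv, htog, map_mul, map_intCast]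
    simp only [hnb]
    push_cast
    ring

end CfsgLib.RealChar.FreeInertial
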