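import Cfsg.Agent.Lib.RealChar.FreeInertial.Regular
import Cfsg.Agent.Lib.BrauerPairs.StarFamily
import Cfsg.Agent.Lib.CharTheory.Ito

/-!
# The nilpotent blocks below an abelian pair moved freely
-/

set_option autoImplicit false
set_option linter.style.haveILetI false
set_option linter.unusedSectionVars false

noncomputable section

namespace CfsgLib.RealChar.FreeInertial

open Cfsg CfsgLib.Blocks MonoidAlgebra CfsgLib.BrauerPairs
open CfsgLib.BlockStar (val normalLE_of_abelian IsPrimIdem)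

variable {G : Type*} [Group G] [Finite G] {p : ℕ} [Fact p.Prime] {M : Ideal AlgInt} [M.IsPrime]
  [CharP (Res M) p] [IsAlgClosed (Res M)] {B : Set (IrrCharacter G)} {P : Subgroup G}
  {e0 : MonoidAlgebra (Res M) G} (hM : IsPModular p M) (hB : IsPBlock M B)
  (hmax : IsMaxPair p (⊤ : Subgroup G) (redElem M (blockCoeff B)) P e0)
  (hab : ∀ x ∈ P, ∀ y ∈ P, x * y = y * x)

include hM hB hmax hab

/-- The block of the centralizer below the pair is nilpotent when the stabiliser meets it only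
in the centralizer of `P`. -/
theorem exists_nilp_below {Q : Subgroup G} (hQ : Q ≤ P) {K : Subgroup G}
    (hK : K = Subgroup.centralizer (Q : Set G))
    (hfix : ∀ t ∈ pairStab (⊤ : Subgroup G) P e0, t ∈ K → t ∈ Subgroup.centralizer (P : Set G)) :
    ∃ (b : Set (IrrCharacter K)) (e' : MonoidAlgebra (Res M) K),
      IsPBlock M b ∧ PairLE p (⊤ : Subgroup G) Q (subIdem M K b) P e0 ∧ mapG K.subtype e' = e0 ∧
      P ≤ K ∧ IsMaxPair p (⊤ : Subgroup K) (redElem M (blockCoeff b)) (P.subgroupOf K) e' ∧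
      IsNilp p (⊤ : Subgroup K) (redElem M (blockCoeff b)) ∧
      AllEq p b ∧ Nat.card b = Nat.card P := by
  classical
  haveI := Fintype.ofFinite G
  obtain ⟨f, hle⟩ := exists_pairLE hmax.1.1 hQ
  have hf := (hle.isPair_left hmax.1.1).2.2
  rw [cenIn_top, ← hK] at hf
  obtain ⟨b, hbl, hbf⟩ := exists_isPBlock_subIdem hf
  rw [← hbf] at hle
  have hb := isBlockIdem_redElem_blockCoeff (M := M) hB
  have hn := normalLE_of_abelian hmax.1.1 hab hle
  have hloc := hmax.local_of_abelian hb hab hn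
  rw [cenIn_top, ← hK] at hloc
  have hφ := K.subtype_injective
  have hPK : P ≤ K := hloc.1.1.2.1
  have hP' : (P.subgroupOf K).map K.subtype = P := Subgroup.map_subgroupOf_eq_of_le hPK
  have hcen : (cenIn (⊤ : Subgroup K) (P.subgroupOf K)).map K.subtype = cenIn K P := by
    rw [map_cenIn hφ, map_top_subtype, hP']
  obtain ⟨e', -, he'⟩ := exists_of_isBlockIdem_map hφ (hcen.symm ▸ hloc.1.1.2.2)
  have hbid : mapG K.subtype (redElem M (blockCoeff b)) = subIdem M K b :=
    (redElem_subgroupBlockCoeff K _).symm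
  have hmax' : IsMaxPair p (⊤ : Subgroup K) (redElem M (blockCoeff b)) (P.subgroupOf K) e' := by
    refine PairOf.isMaxPair_of_card ?_ fun R g hR => ?_
    · rw [← pairOf_mapG_iff hφ, map_top_subtype, hP', he', hbid]
      exact hloc.1
    · have hR' := (pairOf_mapG_iff hφ).2 hR
      rw [map_top_subtype, hbid] at hR'
      have h := hloc.card_le (isBlockIdem_subIdem hbl) hR'
      rwa [Subgroup.card_map_of_injective hφ, ← hP', Subgroup.card_map_of_injective hφ] at h
  have hab' : ∀ x ∈ P.subgroupOf K, ∀ y ∈ P.subgroupOf K, x * y = y * x := fun x hx y hy =>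
    Subtype.ext (hab x hx y hy)
  have hnil : IsNilp p (⊤ : Subgroup K) (redElem M (blockCoeff b)) := by
    refine (hmax'.isNilp_iff_of_abelian (isBlockIdem_redElem_blockCoeff (M := M) hbl) hab').2
      fun t ht => ?_
    rw [← mem_pairStab_map_iff hφ, map_top_subtype, hP', he'] at ht
    obtain ⟨-, h1, h2⟩ := mem_pairStab.1 ht
    have := hfix t (mem_pairStab.2 ⟨Subgroup.mem_top _, h1, h2⟩) t.2
    exact Subgroup.mem_centralizer_iff.2 fun v hv =>
      Subtype.ext (Subgroup.mem_centralizer_iff.1 this v hv)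
  obtain ⟨χ, hχ, h0⟩ :=
    BrauerCharacters.exists_height_eq_zero (p := p) (B := b) (Blocks.isPBlock_nonempty hbl)
  obtain ⟨Φ, hΦ⟩ := BlockStar.exists_equiv_of_nilp hM hbl hmax' hnil hχ h0
  have heq : ∀ ξ ∈ b, ∀ g : K, ¬ p ∣ orderOf g → (ξ : K → ℂ) g = (χ : K → ℂ) g := by
    intro ξ hξ g hg
    rw [hΦ ⟨ξ, hξ⟩ g hg, CharTheory.apply_one_eq_one_of_comm (A := P.subgroupOf K)
      (fun x y => Subtype.ext (hab' x x.2 y y.2)) (Φ ⟨ξ, hξ⟩).2, one_mul]
  refine ⟨b, e', hbl, hle, he', hPK, hmax', hnil, fun ξ hξ ξ' hξ' g hg =>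
    (heq ξ hξ g hg).trans (heq ξ' hξ' g hg).symm, ?_⟩
  rw [Nat.card_congr Φ, card_irrCharacter_comm hab',
    Nat.card_congr (Subgroup.subgroupOfEquivOfLe hPK).toEquiv]

omit hM hB hab in
/-- The Brauer images of a primitive idempotent at the pair lie in the blocks below it. -/
theorem brau_mul_below {i : MonoidAlgebra (Res M) G} (hi : IsPrimIdem P i)
    (h0 : brau P i * e0 ≠ 0) {Q : Subgroup G} (hQ : Q ≤ P) {f : MonoidAlgebra (Res M) G}
    (hf : PairLE p (⊤ : Subgroup G) Q f P e0) : brau Q i * f = brau Q i := by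
  classical
  have hbr : brau P i ≠ 0 := fun h => h0 (by rw [h, zero_mul])
  obtain ⟨b, hbp, hb⟩ := BlockStar.exists_pair_of_prim (R := (⊥ : Subgroup G)) hmax.1.1.1
    bot_le (by simp) (by rwa [sup_bot_eq]) hbr
  have hbe : e0 = b := (existsUnique_pairLE hbp le_rfl).unique
    (hb P le_rfl e0 hmax.1.1.2.2 h0) (PairLE.refl _ _ _ _)
  subst hbe
  by_contra hne
  have hbf : IsBlockIdem (cenIn (⊤ : Subgroup G) Q) f := (hf.isPair_left hmax.1.1).2.2
  have hne' : brau Q i * (1 - f) ≠ 0 := by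
    rw [mul_sub, mul_one]; exact sub_ne_zero.2 (Ne.symm hne)
  obtain ⟨c, hc, hc0⟩ := exists_isBlockIdem_mul_ne_zero (cenIn (⊤ : Subgroup G) Q) hne'
  by_cases hcf : c = f
  · exact hc0 (by rw [hcf, mul_assoc, sub_mul, one_mul, hbf.mul_self, sub_self, mul_zero])
  · rw [mul_assoc, sub_mul, one_mul, hbf.mul_eq_zero_of_ne hc (Ne.symm hcf), sub_zero] at hc0
    exact hcf ((existsUnique_pairLE hmax.1.1 hQ).unique (hb Q hQ c hc hc0) hf)

end CfsgLib.RealChar.FreeInertial
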