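import Cfsg.Agent.Lib.RealChar.FreeInertial.Count
import Cfsg.Agent.Lib.RealChar.FreeInertial.Data
import Cfsg.Agent.Lib.BlockSections.SmallDefect
import Cfsg.Agent.Lib.BrauerCharacters.BlockOneSimple

/-!
# The numbers of characters of a block with abelian defect group moved freely

`k ≤ e + (|P| - 1) / e` and `l ≤ e`, with equality together, and equality when `e ≤ 3`; for
`e = 3` and `|P| = 13` the rank is taken as an assumption.
-/

set_option autoImplicit false
set_option linter.style.haveILetI false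
set_option linter.unusedSectionVars false

noncomputable section

namespace CfsgLib.RealChar.FreeInertial

open Cfsg CfsgLib.Blocks MonoidAlgebra CfsgLib.BrauerPairs
open CfsgLib.BlockSections (belowBlock belowBlock_spec)
open CfsgLib.BrauerCharacters (blockFinset mem_blockFinset)
open scoped ComplexConjugate

variable {G : Type*} [Group G] [Fintype G] {p : ℕ} [Fact p.Prime] {M : Ideal AlgInt} [M.IsPrime]
  [CharP (Res M) p] [IsAlgClosed (Res M)] {B : Set (IrrCharacter G)} {P : Subgroup G}
  {e0 : MonoidAlgebra (Res M) G} (hM : IsPModular p M) (hB : IsPBlock M B)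
  (hmax : IsMaxPair p (⊤ : Subgroup G) (redElem M (blockCoeff B)) P e0)
  (hab : ∀ x ∈ P, ∀ y ∈ P, x * y = y * x)
  (hfree : ∀ t ∈ pairStab (⊤ : Subgroup G) P e0, ∀ u ∈ P, u ≠ 1 → t * u * t⁻¹ = u →
    t ∈ Subgroup.centralizer (P : Set G))
include hM hB hmax hab hfree

/-- The count relating the characters and the rank. -/
theorem card_identity :
    Nat.card B * (Subgroup.centralizer (P : Set G)).relIndex (pairStab (⊤ : Subgroup G) P e0) + 1 =
      blockRank p B * (Subgroup.centralizer (P : Set G)).relIndex (pairStab (⊤ : Subgroup G) P e0) +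
        Nat.card P := by
  classical
  haveI : ∀ y : G, Fintype (Subgroup.centralizer ({y} : Set G)) := fun y => Fintype.ofFinite _
  have h := BlockSections.card_block_mul_card_stab hM hB hmax hab
  set T := pairStab (⊤ : Subgroup G) P e0 with hT
  set C := Subgroup.centralizer (P : Set G) with hCdef
  set U := Finset.univ.filter (fun u : G => u ∈ P ∧ u ≠ 1) with hUdef
  have hU : U.card + 1 = Nat.card P := by
    rw [Nat.card_eq_fintype_card, Fintype.card_subtype,
      show U = (Finset.univ.filter fun u : G => u ∈ P).erase 1 by ext u; simp [U, and_comm],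
      Finset.card_erase_add_one (by simp [P.one_mem])]
  rw [Finset.sum_congr rfl (g := fun _ => Nat.card C) fun u hu => ?_] at h
  · rw [Finset.sum_const, smul_eq_mul] at h
    have hcard : Nat.card T = C.relIndex T * Nat.card C := by
      rw [Subgroup.relIndex, ← Subgroup.index_mul_card (C.subgroupOf T),
        Nat.card_congr (Subgroup.subgroupOfEquivOfLe
          (BlockSections.centralizer_le_stab hM hB hmax)).toEquiv]
    rw [hcard, ← mul_assoc, ← mul_assoc, ← add_mul] at h
    have := Nat.eq_of_mul_eq_mul_right Nat.card_pos h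
    omega
  · obtain ⟨huP, hu1⟩ := (Finset.mem_filter.1 hu).2
    rw [BlockSections.stab_inf_eq hM hB hmax u huP fun t ht => hfree t ht u huP hu1,
      BlockSections.blockRank_belowBlock_eq_one hM hB hmax hab huP
        (fun t ht => hfree t ht u huP hu1)
        (fun _ _ _ => (below_spec hM hB hmax hab hfree huP hu1).2.le), mul_one]

set_option maxHeartbeats 1000000 in
/-- The numbers of the block. -/
theorem block_counts (hP : P ≠ ⊥) {e : ℕ}
    (he : (Subgroup.centralizer (P : Set G)).relIndex (pairStab (⊤ : Subgroup G) P e0) = e)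
    (h13 : e = 3 → Nat.card P = 13 → blockRank p B = e) :
    Nat.card B ≤ e + (Nat.card P - 1) / e ∧ blockRank p B ≤ e ∧
      (Nat.card B = e + (Nat.card P - 1) / e ↔ blockRank p B = e) ∧
      (e ≤ 3 → Nat.card B = e + (Nat.card P - 1) / e ∧ blockRank p B = e) := by
  classical
  haveI : ∀ y : G, Fintype (Subgroup.centralizer ({y} : Set G)) := fun y => Fintype.ofFinite _
  haveI := Fintype.ofFinite (IrrCharacter G)
  haveI := Fintype.ofFinite B
  haveI := Fintype.ofFinite P
  letI : CommGroup P := { (inferInstance : Group P) with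
    mul_comm := fun x y => Subtype.ext (hab x x.2 y y.2) }
  haveI := Fintype.ofFinite (P →* ℂˣ)
  haveI : Nontrivial P := (Subgroup.nontrivial_iff_ne_bot P).2 hP
  have hY : IsPGroup p P := hmax.1.1.1
  have hb := isBlockIdem_redElem_blockCoeff (M := M) hB
  set E := (stabAut (⊤ : Subgroup G) P e0).range with hEdef
  haveI : Finite E := Finite.of_surjective _ (stabAut (⊤ : Subgroup G) P e0).rangeRestrict_surjective
  haveI := Fintype.ofFinite E
  have hPC : P ≤ cenIn (⊤ : Subgroup G) P := le_inf le_top fun u hu =>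
    Subgroup.mem_centralizer_iff.2 fun v hv => hab v hv u hu
  have hEcard : Fintype.card E = e := by
    rw [← Nat.card_eq_fintype_card, hEdef, ← Subgroup.index_ker, ker_stabAut, ← he, cenIn_top]
    rfl
  have hEp : ¬ p ∣ Fintype.card E := by
    have h3 := hmax.not_dvd_relIndex hb
    rw [sup_eq_right.2 hPC, cenIn_top, he] at h3
    rwa [hEcard]
  have hEfree : ∀ a ∈ E, ∀ y : P, a y = y → y ≠ 1 → a = 1 := by
    rintro _ ⟨t, rfl⟩ y hy hy1
    have h1 : (t : G) * (y : G) * (t : G)⁻¹ = y := congrArg Subtype.val hy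
    have := hfree t t.2 y y.2 (fun h => hy1 (Subtype.ext h)) h1
    ext x
    rw [coe_stabAut, MulAut.one_apply, ← Subgroup.mem_centralizer_iff.1 this x x.2,
      mul_inv_cancel_right]
  have hne1 : ∀ v : P, v ≠ 1 → (v : G) ≠ 1 := fun v hv h => hv (Subtype.ext h)
  -- the rows and their normalisation
  obtain ⟨χ0, hχ0, i, hi, h0, hv0⟩ := exists_good_idem hM hB hmax
  have hι : ∀ v : P, P.subtype v ∈ P := fun v => v.2
  have hsurj : ∀ x ∈ P, ∃ v : P, P.subtype v = x := fun x hx => ⟨⟨x, hx⟩, rfl⟩
  obtain ⟨N, nb, ρ, C, hN, hnb, hNgen, hnbgen, hd, hnb2, hC, hρint, hρ, hρC⟩ :=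
    exists_normal_data hM hB hmax hab hfree hi h0 hι P.subtype_injective hv0 hsurj hY
  set D : B → P → ℂ := fun χ v => rowD (M := M) p P e0 (χ : IrrCharacter G) v with hD
  have hDinv : ∀ χ, ∀ a ∈ E, ∀ v, v ≠ 1 → D χ (a v) = D χ v := by
    rintro χ _ ⟨t, rfl⟩ v hv
    simp only [hD, coe_stabAut]
    exact rowD_conj hM hB hmax hab hfree v.2 (hne1 v hv) t.2 _
  obtain ⟨mf, hmint, hmnorm, hminv, hmS⟩ := exists_multiplier hM hY E hEp D
    (fun χ v _ => isIntegral_rowD _ _) hDinv ⟨χ0, hχ0⟩
    (fun v hv => (global_units hM hB hmax hab hfree hi h0 hι P.subtype_injective hv0 hY hv).1)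
    N nb hN hnb hNgen hnbgen (fun χ => hd χ) hnb2 ρ C hC hρint hρ hρC
  -- sums over the block
  have hres : ∀ F : IrrCharacter G → ℂ, (∀ χ, χ ∉ B → F χ = 0) →
      ∑ χ : B, F χ = ∑ χ : IrrCharacter G, F χ := by
    intro F hF
    rw [← Finset.sum_subset (Finset.subset_univ (Finset.univ.filter fun χ => χ ∈ B))
      (fun χ _ hχ => hF χ (by simpa using hχ))]
    exact (Finset.sum_subtype _ (fun χ => by simp) F).symm
  have horth : ∀ u v : P, u ≠ 1 → v ≠ 1 → ∀ [Decidable (∃ a ∈ E, a u = v)],
      ∑ χ : B, (D χ u * mf u) * conj (D χ v * mf v) =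
        if ∃ a ∈ E, a u = v then (Fintype.card P : ℂ) else 0 := by
    intro u v hu hv _
    rw [Finset.sum_congr rfl (fun χ _ => show (D χ u * mf u) * conj (D χ v * mf v) =
      (D χ u * conj (D χ v)) * (mf u * conj (mf v)) by rw [map_mul]; ring), ← Finset.sum_mul]
    simp only [hD]
    rw [hres (fun χ => rowD (M := M) p P e0 χ u * conj (rowD (M := M) p P e0 χ v)) fun χ hχ => by
      rw [rowD_eq_zero_of_notMem hM hB hmax hab hfree u.2 (hne1 u hu) hχ, zero_mul]]
    split_ifs with h
    · obtain ⟨a, ha, rfl⟩ := h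
      rw [hminv a ha u hu, hmnorm u hu, mul_one, ← Nat.card_eq_fintype_card,
        ← sum_rowD_mul_conj_self hM hB hmax hab hfree u.2 (hne1 u hu)]
      refine Finset.sum_congr rfl fun χ _ => ?_
      obtain ⟨t, rfl⟩ := ha
      rw [coe_stabAut, rowD_conj hM hB hmax hab hfree u.2 (hne1 u hu) t.2]
    · refine mul_eq_zero_of_left (sum_rowD_mul_conj_eq_zero hM hB hmax hab hfree u.2 (hne1 u hu)
        v.2 (hne1 v hv) fun t ht htu => h ⟨_, ⟨⟨t, ht⟩, rfl⟩, Subtype.ext ?_⟩) _
      rw [coe_stabAut]
      exact htu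
  have hid := card_identity hM hB hmax hab hfree
  rw [he] at hid
  have hlpos : 0 < blockRank p B := BrauerCharacters.blockRank_pos (p := p) (isPBlock_nonempty hB)
  have hPpos : 2 ≤ Nat.card P := by
    rw [Nat.card_eq_fintype_card]; exact Fintype.one_lt_card
  have h2 : 2 ≤ Nat.card B := by
    by_contra h
    push Not at h
    have h3 : Nat.card B * e ≤ 1 * e := Nat.mul_le_mul_right e (by omega)
    have h4 : 1 * e ≤ blockRank p B * e := Nat.mul_le_mul_right e hlpos
    omega
  have hmne : ∀ v : P, v ≠ 1 → mf v ≠ 0 := fun v hv h => by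
    have h1 := hmnorm v hv
    rw [h, zero_mul] at h1
    exact zero_ne_one h1
  obtain ⟨m, hm, hle, heq⟩ := count_of_rows hM hY E hEfree (fun χ v => D χ v * mf v)
    (fun χ v hv => (isIntegral_rowD _ _).mul (hmint v hv)) (fun χ => (hmS χ).2)
    (fun χ => (hmS χ).1) horth (fun χ => by
      obtain ⟨u, hu, hu1, hne⟩ := exists_rowD_ne_zero hM hB hmax hab hfree h2 χ.2
      exact ⟨⟨u, hu⟩, fun h => hu1 (congrArg Subtype.val h),
        mul_ne_zero hne (hmne _ fun h => hu1 (congrArg Subtype.val h))⟩)
  rw [hEcard, ← Nat.card_eq_fintype_card (α := P)] at hm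
  rw [hEcard, ← Nat.card_eq_fintype_card (α := B)] at hle heq
  have hepos : 0 < e := hEcard ▸ Fintype.card_pos
  have hklm : Nat.card B = blockRank p B + m := by
    refine Nat.eq_of_mul_eq_mul_right hepos ?_
    rw [add_mul]
    omega
  have hdiv : (Nat.card P - 1) / e = m := by
    rw [← hm, Nat.add_sub_cancel, Nat.mul_div_cancel _ hepos]
  rw [hdiv]
  have hdeg : ∀ u : P, u ≠ 1 →
      ∑ χ : B, ((charDegree ((χ : IrrCharacter G) : G → ℂ) : ℤ) : ℂ) * (D χ u * mf u) = 0 := by
    intro u hu
    rw [Finset.sum_congr rfl (fun (χ : B) _ =>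
      show ((charDegree ((χ : IrrCharacter G) : G → ℂ) : ℤ) : ℂ) * (D χ u * mf u) =
        (((χ : IrrCharacter G) : G → ℂ) 1 * rowD (M := M) p P e0 (χ : IrrCharacter G) u) *
          mf u by
        rw [(BrauerCharacters.charDegree_spec (χ : IrrCharacter G)).1]; simp only [hD]; push_cast
        ring), ← Finset.sum_mul,
      hres (fun χ => (χ : G → ℂ) 1 * rowD (M := M) p P e0 χ u) fun χ hχ => by
        rw [rowD_eq_zero_of_notMem hM hB hmax hab hfree u.2 (hne1 u hu) hχ, mul_zero],
      sum_degree_mul_rowD hM hB hmax hab hfree u.2 (hne1 u hu), zero_mul]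
  have hfin : e ≤ 3 → Nat.card B = e + m := by
    intro he3
    rcases heq he3 (by omega) (fun χ => (charDegree ((χ : IrrCharacter G) : G → ℂ) : ℤ)) hdeg with
      h | ⟨rfl, rfl, hk, f, hf⟩ | ⟨rfl, hm34⟩
    · exact h
    · exfalso
      obtain ⟨n, hn, -⟩ := BrauerCharacters.exists_square_of_blockRank_one hM hB
        (show blockRank p B = 1 by omega) hk.le
      have hsum : ∑ᶠ χ ∈ B, ((charDegree (χ : G → ℂ) : ℂ)) ^ 2 =
          ((∑ χ : B, (charDegree ((χ : IrrCharacter G) : G → ℂ) : ℤ) *
            (charDegree ((χ : IrrCharacter G) : G → ℂ) : ℤ) : ℤ) : ℂ) := by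
        rw [finsum_mem_eq_sum_of_inter_support_eq _
          (t := Finset.univ.filter fun χ => χ ∈ B) (by ext χ; simp),
          Finset.sum_subtype (Finset.univ.filter fun χ => χ ∈ B) (p := fun χ => χ ∈ B)
            (fun χ => by simp)]
        push_cast
        exact Finset.sum_congr rfl fun χ _ => sq _
      rw [hsum, hf, hk] at hn
      have hn' : 7 * (f.natAbs * f.natAbs) = 4 * (n * n) := by
        have h1 : (7 : ℤ) * (f * f) = 4 * ((n : ℤ) * n) := by
          apply Int.cast_injective (α := ℂ)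
          push_cast at hn ⊢
          rw [hn, sq]
        zify
        rwa [← abs_mul, abs_of_nonneg (mul_self_nonneg f)]
      rcases Nat.eq_zero_or_pos f.natAbs with h0' | h0'
      · obtain ⟨χ⟩ := (isPBlock_nonempty hB).to_subtype
        have hpos : (0 : ℤ) < (charDegree ((χ : IrrCharacter G) : G → ℂ) : ℤ) := by
          exact_mod_cast (BrauerCharacters.charDegree_spec (χ : IrrCharacter G)).2.1
        have h1 : (0 : ℤ) < ∑ χ : B, (charDegree ((χ : IrrCharacter G) : G → ℂ) : ℤ) *
            (charDegree ((χ : IrrCharacter G) : G → ℂ) : ℤ) :=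
          Finset.sum_pos' (fun _ _ => mul_self_nonneg _)
            ⟨χ, Finset.mem_univ _, mul_pos hpos hpos⟩
        rw [hf, Int.natAbs_eq_zero.1 h0'] at h1
        simp at h1
      · have hnpos : 0 < n := Nat.pos_of_ne_zero fun h => by
          subst h; simp at hn'; omega
        haveI : Fact (Nat.Prime 7) := ⟨by norm_num⟩
        have h1 := congrArg (padicValNat 7) hn'
        rw [padicValNat.mul (by norm_num) (by positivity),
          padicValNat.mul h0'.ne' h0'.ne', padicValNat.mul (by norm_num) (by positivity),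
          padicValNat.mul hnpos.ne' hnpos.ne', padicValNat.self (by norm_num),
          padicValNat.eq_zero_of_not_dvd (show ¬ 7 ∣ 4 by norm_num)] at h1
        omega
    · rcases hm34 with rfl | rfl
      · exfalso
        obtain ⟨k, hk⟩ := IsPGroup.iff_card.1 hY
        have h10 : p ^ k = 10 := by omega
        have hp := (Fact.out : p.Prime)
        have h5 := (Nat.prime_five).dvd_of_dvd_pow (h10 ▸ (by norm_num : 5 ∣ 10))
        have h2' := (Nat.prime_two).dvd_of_dvd_pow (h10 ▸ (by norm_num : 2 ∣ 10))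
        have := (Nat.prime_dvd_prime_iff_eq Nat.prime_five hp).1 h5
        have := (Nat.prime_dvd_prime_iff_eq Nat.prime_two hp).1 h2'
        omega
      · have := h13 rfl (by omega)
        omega
  refine ⟨hle, by omega, by omega, fun he3 => ⟨hfin he3, ?_⟩⟩
  have := hfin he3
  omega

end CfsgLib.RealChar.FreeInertial
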