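import Cfsg.Agent.Lib.RealChar.FreeInertial.SRing
import Cfsg.Agent.Lib.Blocks.RootsOfUnity
import Mathlib.NumberTheory.Basic

/-!
# Normalising the decomposition numbers by a function of absolute value one

From a rational factor `N` turning the rows into integral combinations of linear characters and a
function of absolute value one that does the same up to squares, an invariant multiplier of
absolute value one is built under which the rows are local combinations of linear characters.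
-/

set_option autoImplicit false
set_option linter.style.haveILetI false
set_option linter.unusedSectionVars false

namespace CfsgLib.RealChar.FreeInertial

open Cfsg CfsgLib.Blocks Finset
open scoped ComplexConjugate

variable {Y : Type*} [CommGroup Y] [Fintype Y] [Fintype (Y →* ℂˣ)]

/-- An integral combination of linear characters. -/
def IntComb (f : Y → ℂ) : Prop :=
  ∃ n : (Y →* ℂˣ) → ℤ, ∀ v, f v = ∑ l, (n l : ℂ) * (l v : ℂ)

theorem intComb_one : IntComb (fun _ : Y => (1 : ℂ)) := by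
  classical
  exact ⟨fun l => if l = 1 then 1 else 0, fun v => by simp⟩

theorem IntComb.mul {f g : Y → ℂ} (hf : IntComb f) (hg : IntComb g) :
    IntComb fun v => f v * g v := by
  classical
  obtain ⟨n, hn⟩ := hf
  obtain ⟨m, hm⟩ := hg
  refine ⟨fun l => ∑ k, n k * m (k⁻¹ * l), fun v => ?_⟩
  simp only [hn, hm, sum_mul, Int.cast_sum, Int.cast_mul]
  rw [sum_comm (f := fun l k => (n k : ℂ) * (m (k⁻¹ * l) : ℂ) * (l v : ℂ))]
  refine sum_congr rfl fun k _ => ?_
  rw [mul_sum]
  refine Fintype.sum_equiv (Equiv.mulLeft k) _ _ fun j => ?_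
  simp only [Equiv.coe_mulLeft, MonoidHom.mul_apply, Units.val_mul]
  have hmj : m (k⁻¹ * (k * j)) = m j := congrArg m (MonoidHom.ext fun y => by simp)
  rw [hmj]
  ring

theorem IntComb.prod {κ : Type*} {s : Finset κ} {f : κ → Y → ℂ}
    (hf : ∀ k ∈ s, IntComb (f k)) : IntComb fun v => ∏ k ∈ s, f k v := by
  classical
  induction s using Finset.induction_on with
  | empty => simpa using intComb_one (Y := Y)
  | insert a s ha ih =>
    simp only [prod_insert ha]
    exact (hf a (mem_insert_self _ _)).mul (ih fun k hk => hf k (mem_insert_of_mem hk))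

theorem IntComb.conj {f : Y → ℂ} (hf : IntComb f) : IntComb fun v => conj (f v) := by
  obtain ⟨n, hn⟩ := hf
  refine ⟨fun l => n l⁻¹, fun v => ?_⟩
  simp only [hn, map_sum, map_mul, map_intCast, BrauerPairs.conj_unit_apply]
  exact Fintype.sum_equiv (Equiv.inv _) _ _ fun l => by simp

theorem IntComb.comp {f : Y → ℂ} (hf : IntComb f) (φ : Y →* Y) : IntComb fun v => f (φ v) := by
  classical
  obtain ⟨n, hn⟩ := hf
  refine ⟨fun k => ∑ l ∈ univ.filter (fun l : Y →* ℂˣ => l.comp φ = k), n l, fun v => ?_⟩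
  simp only [hn, Int.cast_sum, sum_mul]
  rw [← sum_fiberwise univ (fun l : Y →* ℂˣ => l.comp φ)]
  refine sum_congr rfl fun k _ => sum_congr rfl fun l hl => ?_
  rw [← (mem_filter.1 hl).2]
  rfl

variable {M : Ideal AlgInt} [M.IsPrime] {p : ℕ} [hp : Fact p.Prime]

theorem IntComb.inS {f : Y → ℂ} (hf : IntComb f) : InS M f := by
  obtain ⟨n, hn⟩ := hf
  exact ⟨fun l => n l, fun l => memLocalRing_intCast _, fun u _ => hn u⟩

theorem isIntegral_unit_apply (l : Y →* ℂˣ) (v : Y) : IsIntegral ℤ (l v : ℂ) := by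
  refine IsIntegral.of_pow (isOfFinOrder_of_finite v).orderOf_pos ?_
  rw [← Units.val_pow_eq_pow_val, ← map_pow, pow_orderOf_eq_one, map_one, Units.val_one]
  exact isIntegral_one

theorem memLocalIdeal_apply_sub_one (hM : IsPModular p M) (hY : IsPGroup p Y) (l : Y →* ℂˣ)
    (v : Y) : MemLocalIdeal M ((l v : ℂ) - 1) := by
  obtain ⟨k, hk⟩ := hY v
  refine memLocalIdeal_sub_one_of_pow_prime_pow hM (k := k) ?_
  rw [← Units.val_pow_eq_pow_val, ← map_pow, hk, map_one, Units.val_one]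

/-- The values are congruent. -/
theorem InS.congr_values (hM : IsPModular p M) (hY : IsPGroup p Y) {f : Y → ℂ} (hf : InS M f)
    {u v : Y} (hu : u ≠ 1) (hv : v ≠ 1) : MemLocalIdeal M (f u - f v) := by
  obtain ⟨c, hc, hfc⟩ := hf
  rw [hfc u hu, hfc v hv, ← sum_sub_distrib]
  refine memLocalIdeal_sum fun l _ => ?_
  rw [show c l * (l u : ℂ) - c l * (l v : ℂ) = c l * (((l u : ℂ) - 1) - ((l v : ℂ) - 1)) by ring]
  exact memLocalIdeal_mul_left (hc l) (memLocalIdeal_sub (memLocalIdeal_apply_sub_one hM hY l u)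
    (memLocalIdeal_apply_sub_one hM hY l v))

/-- An odd sign choice puts the square root of a square in the ring. -/
theorem inS_of_sq_of_congr (hM : IsPModular p M) (hY : IsPGroup p Y) (hp2 : p ≠ 2) {f : Y → ℤ}
    {c : ℤ} (hc : ¬ (p : ℤ) ∣ c) (hf : ∀ v : Y, v ≠ 1 → (p : ℤ) ∣ f v - c)
    (hsq : InS M fun v => ((f v : ℂ)) ^ 2) : InS M fun v => (f v : ℂ) := by
  obtain ⟨s, hs⟩ := IsPGroup.iff_card.1 hY
  have hq : ∀ v : Y, v ≠ 1 → ∃ z : ℤ, f v ^ (p ^ s) = c ^ (p ^ s) + (Fintype.card Y : ℤ) * z := by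
    intro v hv
    obtain ⟨z, hz⟩ := dvd_sub_pow_of_dvd_sub (R := ℤ) (hf v hv) s
    refine ⟨(p : ℤ) * z, ?_⟩
    rw [← Nat.card_eq_fintype_card, hs]
    push_cast at hz ⊢
    linear_combination hz
  choose! z hz using hq
  have hunit : ∀ v : Y, v ≠ 1 → ¬ MemLocalIdeal M ((f v : ℂ) ^ (p ^ s)) := by
    intro v hv h
    rw [memLocalIdeal_pow_iff (memLocalRing_intCast _) (pow_ne_zero _ hp.out.ne_zero),
      memLocalIdeal_intCast_iff hM] at h
    exact hc (by have := dvd_sub h (hf v hv); rwa [sub_sub_cancel] at this)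
  have hpow : InS M fun v => (f v : ℂ) ^ (p ^ s) := by
    refine InS.congr ((inS_const (Y := Y) (memLocalRing_intCast (M := M) (c ^ (p ^ s)))).add
      (inS_card_mul (F := fun v => (z v : ℂ)) fun v _ => memLocalRing_intCast _)) fun v hv => ?_
    have := congrArg (fun x : ℤ => (x : ℂ)) (hz v hv)
    simpa using this
  obtain ⟨j, hj⟩ := (hp.out.odd_of_ne_two hp2).pow (n := s)
  refine ((hsq.pow (j + 1)).mul (hpow.inv hunit)).congr fun v hv => ?_
  have h0 : (f v : ℂ) ≠ 0 := fun h => hunit v hv (by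
    rw [h, zero_pow (pow_ne_zero _ hp.out.ne_zero)]; exact memLocalIdeal_zero)
  rw [← pow_mul, eq_mul_inv_iff_mul_eq₀ (pow_ne_zero _ h0), hj, ← pow_succ']
  ring_nf

theorem rat_identity {N D : ℂ} (hN : N ≠ 0) (hD : D ≠ 0) {e j : ℕ} (he : e = 2 * j + 1)
    (x y : ℂ) :
    N * (x * y) = (N ^ 2) ^ (j + 1) * (D ^ e * x * ((D * N) ^ e)⁻¹) * y := by
  have h : (N ^ 2) ^ (j + 1) = N * N ^ e := by rw [← pow_mul, ← pow_succ', he]; ring_nf
  rw [h, mul_pow]
  field_simp

/-- The multiplier. -/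
theorem exists_multiplier (hM : IsPModular p M) (hY : IsPGroup p Y) [Nontrivial Y]
    (E : Subgroup (MulAut Y)) [Fintype E] (hE : ¬ p ∣ Fintype.card E)
    {ι : Type*} (D : ι → Y → ℂ) (hDint : ∀ χ v, v ≠ 1 → IsIntegral ℤ (D χ v))
    (hDinv : ∀ χ, ∀ a ∈ E, ∀ v, v ≠ 1 → D χ (a v) = D χ v)
    (χ0 : ι) (hD0 : ∀ v, v ≠ 1 → ¬ MemLocalIdeal M (D χ0 v))
    (N nb : Y → ℤ) (hN : ∀ v, v ≠ 1 → ¬ (p : ℤ) ∣ N v) (hnb : ∀ v, v ≠ 1 → ¬ (p : ℤ) ∣ nb v)
    (hNgen : ∀ u v, Subgroup.zpowers u = Subgroup.zpowers v → N u = N v)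
    (hnbgen : ∀ u v, Subgroup.zpowers u = Subgroup.zpowers v → nb u = nb v)
    (hd : ∀ χ, ∃ d : Y → ℂ, IntComb d ∧ ∀ v, v ≠ 1 → D χ v * (N v : ℂ) = d v)
    (hnb2 : InS M fun v => (nb v : ℂ) ^ 2)
    (ρ C : Y → ℂ) (hC : IntComb C) (hρint : ∀ v, v ≠ 1 → IsIntegral ℤ (ρ v))
    (hρ : ∀ v, v ≠ 1 → ρ v * conj (ρ v) = 1)
    (hρC : ∀ v, v ≠ 1 → ρ v * ((N v : ℂ) * (nb v : ℂ) ^ 2) = C v) :
    ∃ m : Y → ℂ, (∀ v, v ≠ 1 → IsIntegral ℤ (m v)) ∧ (∀ v, v ≠ 1 → m v * conj (m v) = 1) ∧
      (∀ a ∈ E, ∀ v, v ≠ 1 → m (a v) = m v) ∧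
      ∀ χ, InS M (fun v => D χ v * m v) ∧
        ∃ (r : Y → ℚ) (n : (Y →* ℂˣ) → ℤ),
          (∀ u v, Subgroup.zpowers u = Subgroup.zpowers v → r u = r v) ∧
          ∀ u, u ≠ 1 → D χ u * m u = (r u : ℂ) * ∑ k, (n k : ℂ) * (k u : ℂ) := by
  classical
  choose d hdc hdv using hd
  have hNne : ∀ v, v ≠ 1 → (N v : ℂ) ≠ 0 := fun v hv =>
    Int.cast_ne_zero.2 fun h => hN v hv (h ▸ dvd_zero _)
  have hnbne : ∀ v, v ≠ 1 → (nb v : ℂ) ≠ 0 := fun v hv =>
    Int.cast_ne_zero.2 fun h => hnb v hv (h ▸ dvd_zero _)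
  have hNu : ∀ v, v ≠ 1 → ¬ MemLocalIdeal M (N v : ℂ) := fun v hv h =>
    hN v hv ((memLocalIdeal_intCast_iff hM _).1 h)
  have hnbu : ∀ v, v ≠ 1 → ¬ MemLocalIdeal M ((nb v : ℂ) ^ 2) := fun v hv h =>
    hnb v hv ((memLocalIdeal_intCast_iff hM _).1
      ((memLocalIdeal_pow_iff (memLocalRing_intCast _) two_ne_zero).1 h))
  have hN2 : InS M fun v => (N v : ℂ) ^ 2 := by
    refine ((hC.inS.mul hC.conj.inS).mul ((hnb2.pow 2).inv fun v hv h => hnbu v hv
      ((memLocalIdeal_pow_iff (InS.memLocalRing hnb2 hv) two_ne_zero).1 h))).congr fun v hv => ?_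
    rw [← hρC v hv, map_mul, map_mul, map_pow, map_intCast, map_intCast,
      eq_mul_inv_iff_mul_eq₀ (pow_ne_zero _ (pow_ne_zero _ (hnbne v hv)))]
    linear_combination (-((N v : ℂ) ^ 2 * ((nb v : ℂ) ^ 2) ^ 2)) * hρ v hv
  have hane : ∀ (a : MulAut Y) (v : Y), v ≠ 1 → a v ≠ 1 := fun a v hv h =>
    hv (a.injective (h.trans (map_one a).symm))
  have hd0u : ∀ v, v ≠ 1 → ¬ MemLocalIdeal M (d χ0 v) := fun v hv => by
    rw [← hdv χ0 v hv, memLocalIdeal_mul_iff (memLocalRing_of_isIntegral (hDint χ0 v hv))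
      (memLocalRing_intCast _)]
    exact not_or.2 ⟨hD0 v hv, hNu v hv⟩
  have hcomp : ∀ (a : MulAut Y) {f : Y → ℂ}, InS M f → InS M fun v => f (a v) := fun a f hf =>
    hf.comp a.toMonoidHom fun u h => a.injective (h.trans (map_one a).symm)
  rcases eq_or_ne p 2 with hp2 | hp2
  · -- the product over the group of the given multiplier
    obtain ⟨j, hj⟩ : Odd (Fintype.card E) := by
      rw [← Nat.not_even_iff_odd, even_iff_two_dvd, ← hp2]; exact hE
    refine ⟨fun v => ∏ a : E, conj (ρ ((a : MulAut Y) v)), fun v hv =>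
        IsIntegral.prod _ fun a _ =>
          map_isIntegral_int (starRingEnd ℂ) (hρint _ (hane _ v hv)),
      fun v hv => ?_, fun a ha v _ => ?_, fun χ => ?_⟩
    · rw [map_prod, ← prod_mul_distrib]
      refine prod_eq_one fun a _ => ?_
      rw [Complex.conj_conj, mul_comm]
      exact hρ _ (hane _ v hv)
    · exact Fintype.prod_equiv (Equiv.mulRight (⟨a, ha⟩ : E)) _ _ fun b => rfl
    · set T : Y → ℂ := fun v => d χ v * ∏ a : E, conj (C ((a : MulAut Y) v)) with hT
      set w : Y → ℤ := fun v =>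
        N v * ∏ a : E, N ((a : MulAut Y) v) * nb ((a : MulAut Y) v) ^ 2 with hw
      have hw0 : ∀ v, v ≠ 1 → (w v : ℂ) ≠ 0 := fun v hv => by
        simp only [hw, Int.cast_mul, Int.cast_prod, Int.cast_pow]
        exact mul_ne_zero (hNne v hv) (prod_ne_zero_iff.2 fun a _ =>
          mul_ne_zero (hNne _ (hane _ v hv)) (pow_ne_zero _ (hnbne _ (hane _ v hv))))
      have hTc : IntComb T :=
        (hdc χ).mul (IntComb.prod fun a _ => (hC.comp (a : MulAut Y).toMonoidHom).conj)
      have heq : ∀ v, v ≠ 1 → D χ v * ∏ a : E, conj (ρ ((a : MulAut Y) v)) =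
          T v * ((w v : ℂ))⁻¹ := fun v hv => by
        rw [eq_mul_inv_iff_mul_eq₀ (hw0 v hv)]
        simp only [hT, hw, Int.cast_mul, Int.cast_prod, Int.cast_pow]
        rw [← hdv χ v hv, ← prod_congr rfl fun (a : E) _ =>
          congrArg conj (hρC ((a : MulAut Y) v) (hane _ v hv))]
        simp only [map_mul, map_pow, map_intCast, prod_mul_distrib]
        ring
      have hdpow : InS M fun v => (d χ0 v ^ Fintype.card E)⁻¹ :=
        InS.inv ((hdc χ0).inS.pow (Fintype.card E)) fun v hv h => hd0u v hv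
          ((memLocalIdeal_pow_iff (InS.memLocalRing ((hdc χ0).inS) hv) Fintype.card_ne_zero).1 h)
      have hprodd : InS M fun v => ∏ a : E, d χ0 ((a : MulAut Y) v) :=
        InS.prod (f := fun (a : E) (v : Y) => d χ0 ((a : MulAut Y) v))
          fun a _ => hcomp (a : MulAut Y) ((hdc χ0).inS)
      have hprodn : InS M fun v => ∏ a : E, (nb ((a : MulAut Y) v) : ℂ) ^ 2 :=
        InS.prod (f := fun (a : E) (v : Y) => (nb ((a : MulAut Y) v) : ℂ) ^ 2)
          fun a _ => hcomp (a : MulAut Y) hnb2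
      have h1 : InS M fun v => ((N v : ℂ) ^ 2) ^ (j + 1) *
          ((∏ a : E, d χ0 ((a : MulAut Y) v)) * (d χ0 v ^ Fintype.card E)⁻¹) *
          ∏ a : E, (nb ((a : MulAut Y) v) : ℂ) ^ 2 :=
        InS.mul (InS.mul (hN2.pow (j + 1)) (InS.mul hprodd hdpow)) hprodn
      have hrat : InS M fun v => (w v : ℂ) := by
        refine h1.congr fun v hv => ?_
        have hD0ne : D χ0 v ≠ 0 := fun h => hD0 v hv (h ▸ memLocalIdeal_zero)
        have hprod : ∏ a : E, d χ0 ((a : MulAut Y) v) =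
            D χ0 v ^ Fintype.card E * ∏ a : E, (N ((a : MulAut Y) v) : ℂ) := by
          rw [← card_univ, ← prod_const, ← prod_mul_distrib]
          exact prod_congr rfl fun a _ => by
            rw [← hdv χ0 _ (hane _ v hv), hDinv χ0 _ a.2 v hv]
        rw [hprod, ← hdv χ0 v hv]
        simp only [hw, Int.cast_mul, Int.cast_prod, Int.cast_pow, prod_mul_distrib]
        exact rat_identity (hNne v hv) hD0ne hj _ _
      refine ⟨(hTc.inS.mul (hrat.inv fun v hv h => ?_)).congr fun v hv => heq v hv, ?_⟩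
      · have h' := (memLocalIdeal_intCast_iff hM _).1 h
        rcases (Nat.prime_iff_prime_int.1 hp.out).dvd_mul.1 h' with h1 | h1
        · exact hN v hv h1
        · obtain ⟨a, -, ha⟩ := (Nat.prime_iff_prime_int.1 hp.out).exists_mem_finset_dvd h1
          rcases (Nat.prime_iff_prime_int.1 hp.out).dvd_mul.1 ha with h2 | h2
          · exact hN _ (hane _ v hv) h2
          · exact hnb _ (hane _ v hv) ((Nat.prime_iff_prime_int.1 hp.out).dvd_of_dvd_pow h2)
      · obtain ⟨n, hn⟩ := hTc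
        refine ⟨fun v => (w v : ℚ)⁻¹, n, fun u v huv => ?_, fun u hu => ?_⟩
        · have himg : ∀ a : MulAut Y, Subgroup.zpowers (a u) = Subgroup.zpowers (a v) := fun a => by
            have := congrArg (Subgroup.map a.toMonoidHom) huv
            simpa [MonoidHom.map_zpowers] using this
          simp only [hw, hNgen u v huv, fun a : MulAut Y => hNgen _ _ (himg a),
            fun a : MulAut Y => hnbgen _ _ (himg a)]
        · rw [heq u hu, hn u, mul_comm]
          push_cast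
          rfl
  · -- a sign
    obtain ⟨v0, hv0⟩ := exists_ne (1 : Y)
    set ε : Y → ℤ := fun v => if (p : ℤ) ∣ N v - N v0 then 1 else -1 with hε
    have hsq : ∀ v, v ≠ 1 → (p : ℤ) ∣ N v ^ 2 - N v0 ^ 2 := fun v hv => by
      rw [← memLocalIdeal_intCast_iff hM]
      push_cast
      exact hN2.congr_values hM hY hv hv0
    have hεN : ∀ v, v ≠ 1 → (p : ℤ) ∣ ε v * N v - N v0 := fun v hv => by
      simp only [hε]
      split_ifs with h
      · simpa using h
      · rw [show -1 * N v - N v0 = -(N v + N v0) by ring, dvd_neg]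
        refine ((Nat.prime_iff_prime_int.1 hp.out).dvd_mul.1 ?_).resolve_left h
        rw [show (N v - N v0) * (N v + N v0) = N v ^ 2 - N v0 ^ 2 by ring]
        exact hsq v hv
    have hεε : ∀ v, (ε v : ℂ) * (ε v : ℂ) = 1 := fun v => by
      simp only [hε]; split_ifs <;> simp
    have hεgen : ∀ u v, Subgroup.zpowers u = Subgroup.zpowers v → ε u = ε v := fun u v h => by
      simp only [hε, hNgen u v h]
    refine ⟨fun v => (ε v : ℂ), fun v _ => isIntegral_algebraMap, fun v _ => by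
      rw [map_intCast]; exact hεε v, fun a ha v hv => ?_, fun χ => ?_⟩
    · have hav : a v ≠ 1 := hane a v hv
      have h := (hdc χ0).inS.congr_values (M := M) hM hY hav hv
      rw [← hdv χ0 _ hav, ← hdv χ0 _ hv, hDinv χ0 a ha v hv, ← mul_sub,
        memLocalIdeal_mul_iff (memLocalRing_of_isIntegral (hDint χ0 v hv))
          (by rw [← Int.cast_sub]; exact memLocalRing_intCast _)] at h
      have h' := h.resolve_left (hD0 v hv)
      rw [← Int.cast_sub, memLocalIdeal_intCast_iff hM] at h'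
      simp only [hε]
      have : ((p : ℤ) ∣ N (a v) - N v0) ↔ (p : ℤ) ∣ N v - N v0 := by
        constructor <;> intro h2
        · have := dvd_sub h2 h'; rwa [show N (a v) - N v0 - (N (a v) - N v) = N v - N v0 by ring]
            at this
        · have := dvd_add h' h2; rwa [show N (a v) - N v + (N v - N v0) = N (a v) - N v0 by ring]
            at this
      simp only [this]
    · have hf : InS M fun v => ((ε v * N v : ℤ) : ℂ) :=
        inS_of_sq_of_congr hM hY hp2 (hN v0 hv0) hεN (hN2.congr fun v _ => by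
          push_cast; linear_combination ((N v : ℂ) ^ 2) * hεε v)
      refine ⟨(((hdc χ).inS.mul hf).mul (hN2.inv fun v hv h => hNu v hv
        ((memLocalIdeal_pow_iff (memLocalRing_intCast _) two_ne_zero).1 h))).congr fun v hv => ?_,
        ?_⟩
      · rw [← hdv χ v hv, eq_mul_inv_iff_mul_eq₀ (pow_ne_zero _ (hNne v hv))]
        push_cast; ring
      · obtain ⟨n, hn⟩ := hdc χ
        refine ⟨fun v => (ε v : ℚ) / (N v : ℚ), n, fun u v h => by
          simp only [hεgen u v h, hNgen u v h], fun u hu => ?_⟩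
        rw [← hn u, ← hdv χ u hu]
        push_cast
        field_simp [hNne u hu]

end CfsgLib.RealChar.FreeInertial
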