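import Cfsg.Agent.Lib.RealChar.FreeInertial.Rows
import Cfsg.Agent.Lib.RealChar.FreeInertial.Normalise
import Cfsg.Agent.Lib.BlockStar.Local
import Cfsg.Agent.Lib.BlockStar.LocalRank
import Cfsg.Agent.Lib.BrauerPairs.StarFamily
import Cfsg.Agent.Lib.Correspondences.IdemChar
import Cfsg.Agent.Lib.CharTheory.Decomp

/-!
# Multiplicities of the Brauer images of an idempotent

At every subgroup `R` of the abelian defect group the Brauer image of an idempotent has one value
at the identity in all the characters of the block below the pair. The values at an element are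
this multiplicity times the decomposition number, and they are integral combinations of linear
characters on the defect group.
-/

set_option autoImplicit false
set_option linter.style.haveILetI false
set_option linter.unusedSectionVars false

noncomputable section

namespace CfsgLib.RealChar.FreeInertial

open Cfsg CfsgLib.Blocks MonoidAlgebra CfsgLib.BrauerPairs
open CfsgLib.BlockStar (val chiSum IsPrimIdem)
open CfsgLib.BlockSections (belowBlock belowBlock_spec)
open CfsgLib.BrauerCharacters (cenElem commute_cenElem)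
open scoped ComplexConjugate

section Coeff

variable {M : Ideal AlgInt} [M.IsPrime] {H : Type*} [Group H] [Fintype H]

/-- The values at a commuting idempotent are integral combinations of linear characters. -/
theorem intComb_val {Y : Type*} [CommGroup Y] [Fintype Y] [Fintype (Y →* ℂˣ)] (ι : Y →* H)
    (ξ : IrrCharacter H) {j : MonoidAlgebra (Res M) H} (hj : j * j = j)
    (hc : ∀ v, Commute (single (ι v) (1 : Res M)) j) :
    IntComb fun v => val ξ (ι v) j := by
  classical
  obtain ⟨E, hE, hEm, hEc⟩ := BlockStar.exists_lift_idem hj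
  obtain ⟨n, ρ, hρ, hχρ⟩ := ξ.2
  let Q : Module.End ℂ (Fin n → ℂ) := ρ.asAlgebraHom (mapRingHom H (locRing M).subtype E)
  let π : Representation ℂ Y (Fin n → ℂ) := ρ.comp ι
  have hπ : ∀ v : Y, ρ.asAlgebraHom (mapRingHom H (locRing M).subtype (single (ι v) 1)) = π v :=
    fun v => by
      rw [mapRingHom_single, map_one, Representation.asAlgebraHom_single, one_smul]; rfl
  have hchar : IsCharacter Y (fun v => val ξ (ι v) j) := by
    have h := CfsgLib.Correspondences.isCharacter_idem π Q
      (by simp only [Q]; rw [← map_mul, ← map_mul, hE]) (fun v => by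
        simp only [Q]
        rw [← hπ, ← map_mul, ← map_mul, ← map_mul, ← map_mul, (hEc _ (hc v)).eq])
    convert h using 1
    funext v
    rw [BlockStar.val_eq ξ hE hEm (hEc _ (hc v)), BlockStar.chiSum_eq_trace ξ ρ hχρ]
    simp only [Q]
    rw [← hπ, ← map_mul, ← map_mul]
  choose z hz using fun l : Y →* ℂˣ => CharTheory.exists_classInner_eq_int
    (Brauer.isGeneralizedCharacter_of_isCharacter hchar)
    (Brauer.isGeneralizedCharacter_of_isCharacter
      (CharTheory.IsIrrCharacter.isCharacter (CharTheory.isIrrCharacter_linear l)))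
  refine ⟨z, fun v => ?_⟩
  simp only [← hz, classInner]
  set g : Y → ℂ := fun v => val ξ (ι v) j with hg
  have hN : (Nat.card Y : ℂ) ≠ 0 := Nat.cast_ne_zero.2 Nat.card_pos.ne'
  have hswap : ∑ l : Y →* ℂˣ, (Nat.card Y : ℂ)⁻¹ * (∑ u, g u * conj (l u : ℂ)) * (l v : ℂ) =
      (Nat.card Y : ℂ)⁻¹ * ∑ u, g u * ∑ l : Y →* ℂˣ, (l (u⁻¹ * v) : ℂ) := by
    simp only [Finset.mul_sum, Finset.sum_mul]
    rw [Finset.sum_comm]
    refine Finset.sum_congr rfl fun u _ => Finset.sum_congr rfl fun l _ => ?_
    rw [conj_unit_apply, map_mul, map_inv, Units.val_mul, MonoidHom.inv_apply]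
    ring
  rw [hswap, Finset.sum_eq_single v]
  · rw [sum_apply_dual, if_pos (inv_mul_cancel v), Nat.card_eq_fintype_card]
    rw [Nat.card_eq_fintype_card] at hN
    field_simp
    rfl
  · intro u _ hu
    rw [sum_apply_dual, if_neg (fun h => hu (inv_mul_eq_one.1 h)), mul_zero]
  · exact fun h => absurd (Finset.mem_univ _) h

/-- The value at the identity is an integer. -/
theorem exists_int_val_one (ξ : IrrCharacter H) {j : MonoidAlgebra (Res M) H} (hj : j * j = j) :
    ∃ n : ℤ, val ξ 1 j = n := by
  haveI : Fintype (PUnit.{1} →* ℂˣ) := Fintype.ofFinite _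
  obtain ⟨n, hn⟩ := intComb_val (Y := PUnit.{1}) (1 : PUnit.{1} →* H) ξ hj fun v => by
    rw [MonoidHom.one_apply, ← one_def]; exact Commute.one_left _
  refine ⟨∑ l, n l, ?_⟩
  have h := hn 1
  simp only [MonoidHom.one_apply] at h
  rw [h]
  push_cast
  refine Finset.sum_congr rfl fun l _ => ?_
  rw [map_one, Units.val_one, mul_one]

end Coeff

section Comp

variable {k : Type*} [Field k] {L H G : Type*} [Group L] [Group H] [Group G]

theorem mapG_comp (φ : H →* G) (ψ : L →* H) (x : MonoidAlgebra k L) :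
    mapG φ (mapG ψ x) = mapG (φ.comp ψ) x := by
  induction x using MonoidAlgebra.induction_linear with
  | zero => simp
  | add a b ha hb => simp only [map_add, ha, hb]
  | single g r => simp [mapG]

theorem mapG_id (x : MonoidAlgebra k G) : mapG (MonoidHom.id G) x = x := by
  induction x using MonoidAlgebra.induction_linear with
  | zero => simp
  | add a b ha hb => simp only [map_add, ha, hb]
  | single g r => simp [mapG]

end Comp

variable {G : Type*} [Group G] [Fintype G] {p : ℕ} [Fact p.Prime] {M : Ideal AlgInt} [M.IsPrime]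
  [CharP (Res M) p] [IsAlgClosed (Res M)]

open scoped Classical in
/-- The multiplicity of the Brauer image of `i` at `R` in the block below the pair. -/
def multR (p : ℕ) (P : Subgroup G) (e0 i : MonoidAlgebra (Res M) G) (R : Subgroup G) : ℂ :=
  haveI := Fintype.ofFinite (Subgroup.centralizer (R : Set G))
  if h : ∃ ξ : IrrCharacter (Subgroup.centralizer (R : Set G)), ∃ b,
      IsPBlock M b ∧ ξ ∈ b ∧ PairLE p (⊤ : Subgroup G) R (subIdem M _ b) P e0
  then val h.choose 1 (pull _ (brau R i)) else 0

variable {B : Set (IrrCharacter G)} {P : Subgroup G} {e0 i : MonoidAlgebra (Res M) G}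
  (hM : IsPModular p M)
  (hmax : IsMaxPair p (⊤ : Subgroup G) (redElem M (blockCoeff B)) P e0)
  (hi : IsPrimIdem P i)
include hM hmax hi

/-- A Brauer image of an idempotent fixed by `P`. -/
theorem brau_idem_of_le {R : Subgroup G} (hR : R ≤ P) : brau R i * brau R i = brau R i :=
  brau_idem (hmax.1.1.1.to_le hR) (fixedBy_anti hR hi.1) hi.2.1

/-- The multiplicity, read off any block of the centraliser with the right idempotent. -/
theorem multR_eq {R : Subgroup G} (hR : R ≤ P) [Fintype (Subgroup.centralizer (R : Set G))]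
    {b : Set (IrrCharacter (Subgroup.centralizer (R : Set G)))} (hbl : IsPBlock M b)
    (hle : PairLE p (⊤ : Subgroup G) R (subIdem M _ b) P e0) (hall : AllEq p b)
    {ξ : IrrCharacter (Subgroup.centralizer (R : Set G))} (hξ : ξ ∈ b) :
    val ξ 1 (pull _ (brau R i)) = multR p P e0 i R := by
  classical
  have h : ∃ ξ : IrrCharacter (Subgroup.centralizer (R : Set G)), ∃ b,
      IsPBlock M b ∧ ξ ∈ b ∧ PairLE p (⊤ : Subgroup G) R (subIdem M _ b) P e0 :=
    ⟨ξ, b, hbl, hξ, hle⟩
  rw [multR, dif_pos h]
  obtain ⟨b', hbl', hmem, hle'⟩ := h.choose_spec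
  have : b = b' := subIdem_injective hbl hbl'
    ((existsUnique_pairLE hmax.1.1 hR).unique hle hle')
  subst this
  convert val_one_eq_of_regular_eq hM (hall ξ hξ _ hmem)
    (pull_idem (trunc_mem_supp _ _) (brau_idem_of_le hM hmax hi hR)) using 2

/-- The multiplicity is an integer. -/
theorem exists_int_multR {R : Subgroup G} (hR : R ≤ P) :
    ∃ n : ℤ, multR p P e0 i R = n := by
  classical
  haveI := Fintype.ofFinite (Subgroup.centralizer (R : Set G))
  rw [multR]
  split_ifs with h
  · obtain ⟨n, hn⟩ := exists_int_val_one h.choose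
      (pull_idem (trunc_mem_supp _ _) (brau_idem_of_le hM hmax hi hR))
    refine ⟨n, ?_⟩
    convert hn using 2
  · exact ⟨0, by simp⟩

section Level

variable (hab : ∀ x ∈ P, ∀ y ∈ P, x * y = y * x) (h0 : brau P i * e0 ≠ 0)
  {H : Type*} [Group H] [Fintype H] [∀ y : H, Fintype (Subgroup.centralizer ({y} : Set H))]
  {φ : H →* G} (hφ : Function.Injective φ) {Q : Subgroup G} (hQ : Q ≤ P)
  (hrange : φ.range = Subgroup.centralizer (Q : Set G))
  {b : Set (IrrCharacter H)} (hbl : IsPBlock M b) {P' : Subgroup H}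
  {e' : MonoidAlgebra (Res M) H}
  (hmax' : IsMaxPair p (⊤ : Subgroup H) (redElem M (blockCoeff b)) P' e')
  (hP' : P'.map φ = P) (he' : mapG φ e' = e0)
  (hfree : ∀ t ∈ pairStab (⊤ : Subgroup H) P' e', ∀ u ∈ P', u ≠ 1 → t * u * t⁻¹ = u →
    t ∈ Subgroup.centralizer (P' : Set H))
  {j : MonoidAlgebra (Res M) H} (hj : mapG φ j = brau Q i)
include hab h0 hφ hQ hrange hbl hmax' hP' he' hfree hj

omit hbl hmax' he' hfree h0 in
/-- The preimage of the Brauer image is an idempotent fixed by the group. -/
theorem level_idem : j * j = j ∧ ∀ v ∈ P', Commute (single v (1 : Res M)) j := by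
  refine ⟨mapG_injective hφ (by rw [map_mul, hj, brau_idem_of_le hM hmax hi hQ]),
    fun v hv => ?_⟩
  refine BlockStar.commute_single_iff.2 (mapG_injective hφ ?_)
  rw [mapG_conjA hφ, hj]
  refine trunc_mem_fixedBy (fun a ha => ?_) hi.1 _ (hP' ▸ Subgroup.mem_map_of_mem φ hv)
  exact Subgroup.le_normalizer (Subgroup.mem_centralizer_iff.2 fun w hw => hab w (hQ hw) a ha)

/-- The value at an element of the defect group is the decomposition number times the
multiplicity. -/
theorem val_eq_rowD_mul (ξ : IrrCharacter H) {u : H} (hu : u ∈ P') (hu1 : u ≠ 1) :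
    val ξ u j =
      rowD (M := M) p P' e' ξ u * multR p P e0 i (Q ⊔ Subgroup.zpowers (φ u)) := by
  classical
  have hab' : ∀ x ∈ P', ∀ y ∈ P', x * y = y * x := fun x hx y hy => hφ (by
    rw [map_mul, map_mul]
    exact hab _ (hP' ▸ Subgroup.mem_map_of_mem φ hx) _ (hP' ▸ Subgroup.mem_map_of_mem φ hy))
  obtain ⟨hjj, hjc⟩ := level_idem hM hmax hi hab hφ hQ hrange hP' hj
  have huP : φ u ∈ P := hP' ▸ Subgroup.mem_map_of_mem φ hu
  set R := Q ⊔ Subgroup.zpowers (φ u) with hR
  have hRP : R ≤ P := sup_le hQ (Subgroup.zpowers_le.2 huP)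
  haveI := Fintype.ofFinite (Subgroup.centralizer (R : Set G))
  obtain ⟨n, hn⟩ := BlockSections.isPElem_of_mem hM hbl hmax' hu
  have hpp : IsPPart p u u := ⟨1, mul_one u, Commute.one_right u, ⟨n, hn⟩,
    by rw [orderOf_one]; exact (Fact.out : p.Prime).not_dvd_one⟩
  set C := Subgroup.centralizer ({u} : Set H) with hC
  have hcenR : Subgroup.centralizer (R : Set G) =
      Subgroup.centralizer (Q : Set G) ⊓ Subgroup.centralizer ({φ u} : Set G) := by
    ext g
    rw [← BrauerCharacters.centralizer_zpowers_eq (φ u)]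
    simp only [hR, le_inf_iff, ← Subgroup.zpowers_le,
      Subgroup.le_centralizer_iff (H := Subgroup.zpowers g), sup_le_iff]
  have hK : C.map φ = Subgroup.centralizer (R : Set G) := by
    rw [hcenR, ← hrange]
    ext g
    constructor
    · rintro ⟨c, hc, rfl⟩
      refine Subgroup.mem_inf.2 ⟨⟨c, rfl⟩, Subgroup.mem_centralizer_singleton_iff.2 ?_⟩
      rw [← map_mul, ← map_mul, Subgroup.mem_centralizer_singleton_iff.1 hc]
    · intro hg
      obtain ⟨⟨c, rfl⟩, hcu⟩ := Subgroup.mem_inf.1 hg
      refine ⟨c, Subgroup.mem_centralizer_singleton_iff.2 (hφ ?_), rfl⟩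
      rw [map_mul, map_mul]
      exact Subgroup.mem_centralizer_singleton_iff.1 hcu
  let σ : Subgroup.centralizer (R : Set G) ≃* C :=
    (MulEquiv.subgroupCongr hK.symm).trans (C.equivMapOfInjective φ hφ).symm
  have hσ : ∀ g, φ (σ g : H) = (g : G) := fun g => by
    show φ (((C.equivMapOfInjective φ hφ).symm (MulEquiv.subgroupCongr hK.symm g) : C) : H) = _
    rw [← Subgroup.coe_equivMapOfInjective_apply C φ hφ, MulEquiv.apply_symm_apply]
    rfl
  obtain ⟨hall, -⟩ := below_spec hM hbl hmax' hab' hfree hu hu1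
  obtain ⟨hb2, hle2, -⟩ := belowBlock_spec hM hbl hmax' hu
  set b2 := belowBlock (M := M) p P' e' u with hb2def
  -- the image of the block
  set b'' := compIrr σ '' b2 with hb''
  have hb''bl : IsPBlock M b'' := isPBlock_image_compIrr σ hb2
  have hid : subIdem M (Subgroup.centralizer (R : Set G)) b'' = mapG φ (subIdem M C b2) := by
    ext g
    by_cases hg : g ∈ Subgroup.centralizer (R : Set G)
    · have h1 := hσ ⟨g, hg⟩
      simp only at h1
      conv_rhs => rw [← h1, coeff_mapG_apply hφ, coeff_redElem, subgroupBlockCoeff,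
        dif_pos (σ ⟨g, hg⟩).2, Subtype.coe_eta]
      rw [coeff_redElem, subgroupBlockCoeff, dif_pos hg, blockCoeff_image_compIrr]
    · rw [coeff_redElem, subgroupBlockCoeff, dif_neg hg, redC_zero]
      have hs : mapG φ (subIdem M C b2) ∈ supp (Res M) (Subgroup.centralizer (R : Set G)) :=
        hK ▸ (mapG_mem_supp_iff hφ).2 (mem_ctr.1 (isBlockIdem_subIdem (M := M) hb2).mem).1
      exact (hs g hg).symm
  have hle : PairLE p (⊤ : Subgroup G) R (subIdem M _ b'') P e0 := by
    refine BlockStar.pairLE_of_brau hmax.1.1 hRP hab (isBlockIdem_subIdem hb''bl) ?_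
    have hn2 := BlockStar.normalLE_of_abelian hmax'.1.1 hab' hle2
    have h := congrArg (mapG φ) hn2.2.2.2.2.2
    rw [map_mul, ← mapG_brau hφ, hP', he'] at h
    rw [hid]
    exact h
  have hall'' : AllEq p b'' := by
    rintro _ ⟨ξ1, h1, rfl⟩ _ ⟨ξ2, h2, rfl⟩ g hg
    simp only [compIrr_apply]
    exact hall ξ1 h1 ξ2 h2 _ (by rwa [MulEquiv.orderOf_eq])
  -- the Brauer image
  have hz : mapG φ (brau (Subgroup.zpowers u) j) = brau R i := by
    have hcz : Subgroup.centralizer (Subgroup.zpowers u : Set H) = C :=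
      BrauerCharacters.centralizer_zpowers_eq u
    rw [← mapG_brau hφ, hj, brau, brau, trunc_trunc_inf, MonoidHom.map_zpowers,
      BrauerCharacters.centralizer_zpowers_eq, inf_comm, ← hcenR]
  set x := pull C (brau (Subgroup.zpowers u) j) with hx
  have hsupp : brau (Subgroup.zpowers u) j ∈ supp (Res M) C := by
    rw [brau, BrauerCharacters.centralizer_zpowers_eq]
    exact trunc_mem_supp _ _
  have hjz : brau (Subgroup.zpowers u) j * brau (Subgroup.zpowers u) j =
      brau (Subgroup.zpowers u) j :=
    mapG_injective hφ (by rw [map_mul, hz, brau_idem_of_le hM hmax hi hRP])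
  have hxx : x * x = x := pull_idem hsupp hjz
  have hxb : x * redElem M (blockCoeff b2) = x := by
    refine pull_mul_eq hsupp (redElem_subgroupBlockCoeff C _).symm (mapG_injective hφ ?_)
    rw [map_mul, hz, ← hid]
    exact brau_mul_below hmax hi h0 hRP hle
  obtain ⟨ξ0, hξ0⟩ := isPBlock_nonempty hb2
  have hrow := val_eq_rowVal C hM hb2 hall hξ0 ξ (z := cenElem u) (commute_cenElem u) hxx hxb
  rw [mapG_pull hsupp] at hrow
  rw [BlockStar.val_brau ξ hM hpp hjj (hjc u hu)]
  refine hrow.trans ?_
  congr 1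
  rw [← multR_eq hM hmax hi hRP hb''bl hle hall'' ⟨ξ0, hξ0, rfl⟩]
  have hεsupp : brau R i ∈ supp (Res M) (Subgroup.centralizer (R : Set G)) := trunc_mem_supp _ _
  have hεε := pull_idem hεsupp (brau_idem_of_le hM hmax hi hRP)
  have hmapσ : mapG σ.toMonoidHom (pull _ (brau R i)) = x := by
    refine mapG_injective C.subtype_injective (mapG_injective hφ ?_)
    rw [mapG_comp, mapG_comp, mapG_pull hsupp, hz]
    conv_rhs => rw [← mapG_pull hεsupp]
    congr 2
    exact MonoidHom.ext fun g => hσ g
  rw [← val_comp_iso σ ξ0 (compIrr σ ξ0) (fun _ => rfl) hεε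
    (a := 1) (by rw [← one_def]; exact Commute.one_left _), map_one, hmapσ]

omit hbl hmax' he' hfree h0 in
/-- The values on the group are integral combinations of linear characters. -/
theorem intComb_val_level {Y : Type*} [CommGroup Y] [Fintype Y] [Fintype (Y →* ℂˣ)]
    (ι : Y →* H) (hι : ∀ v, ι v ∈ P') (ξ : IrrCharacter H) :
    IntComb fun v => val ξ (ι v) j := by
  obtain ⟨hjj, hjc⟩ := level_idem hM hmax hi hab hφ hQ hrange hP' hj
  exact intComb_val ι ξ hjj fun v => hjc _ (hι v)

end Level

end CfsgLib.RealChar.FreeInertial
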