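import Cfsg.Agent.Lib.BrauerPairs.ValTransport
import Cfsg.Agent.Lib.BlockStar.ValSection
import Cfsg.Agent.Lib.CharTheory.Orthogonality

/-!
# Values at idempotents and regular parts

The value of a character at an idempotent depends only on its regular part. When all members of a
block of a subgroup have one regular part, the values of a character of the group at the
idempotents of that block over a central element are proportional.
-/

set_option autoImplicit false
set_option linter.style.haveILetI false
set_option linter.unusedSectionVars false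

noncomputable section

namespace CfsgLib.RealChar.FreeInertial

open Cfsg CfsgLib.Blocks MonoidAlgebra CfsgLib.BrauerPairs
open CfsgLib.BlockStar (val chiSum)
open CfsgLib.BrauerCharacters (centralVal centralVal_spec blockFinset mem_blockFinset)
open scoped ComplexConjugate

section Pull

variable {k : Type*} [Field k] {G : Type*} [Group G]

/-- The part on a subgroup, as an element of its group algebra. -/
def pull (C : Subgroup G) (x : MonoidAlgebra k G) : MonoidAlgebra k C :=
  ofCoeff (x.coeff.comapDomain C.subtype C.subtype_injective.injOn)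

theorem mapG_pull {C : Subgroup G} {x : MonoidAlgebra k G} (hx : x ∈ supp k C) :
    mapG C.subtype (pull C x) = x := by
  ext g
  by_cases hg : g ∈ C.subtype.range
  · obtain ⟨a, rfl⟩ := hg
    rw [coeff_mapG_apply C.subtype_injective]
    simp [pull]
  · rw [coeff_mapG_of_not_mem _ hg]
    exact (hx g fun h => hg ⟨⟨g, h⟩, rfl⟩).symm

theorem pull_mul_eq {C : Subgroup G} {x : MonoidAlgebra k G} (hx : x ∈ supp k C) {y : MonoidAlgebra k C}
    {z : MonoidAlgebra k G} (hy : mapG C.subtype y = z) (h : x * z = x) : pull C x * y = pull C x := by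
  refine mapG_injective C.subtype_injective ?_
  rw [map_mul, mapG_pull hx, hy, h]

theorem pull_idem {C : Subgroup G} {x : MonoidAlgebra k G} (hx : x ∈ supp k C) (h : x * x = x) :
    pull C x * pull C x = pull C x := pull_mul_eq hx (mapG_pull hx) h

end Pull

variable {H : Type*} [Group H] [Fintype H] {M : Ideal AlgInt} [M.IsPrime] {p : ℕ} [Fact p.Prime]

/-- The value at an idempotent depends only on the regular part. -/
theorem val_one_eq_of_regular_eq (hM : IsPModular p M) {η η' : IrrCharacter H}
    (h : ∀ g : H, ¬ p ∣ orderOf g → (η : H → ℂ) g = (η' : H → ℂ) g)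
    {ε : MonoidAlgebra (Res M) H} (hε : ε * ε = ε) : val η 1 ε = val η' 1 ε := by
  classical
  haveI := Fintype.ofFinite (IrrCharacter H)
  have hc1 : Commute (single (1 : H) (1 : Res M)) ε := by rw [← one_def]; exact Commute.one_left _
  obtain ⟨E, hE, hEm, hEc⟩ := BlockStar.exists_lift_fixed hε hc1
  have hval : ∀ ψ : IrrCharacter H, val ψ 1 ε = evalAt E (ψ : H → ℂ) 1 := fun ψ => by
    rw [BlockStar.val_eq ψ hE hEm hEc, hEc.eq, BlockStar.chiSum_eq_evalAt]
  set F : H → ℂ := fun b => ∑ χ : IrrCharacter H, evalAt E (χ : H → ℂ) 1 * (χ : H → ℂ) b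
    with hF
  have hsing : ∀ b : H, p ∣ orderOf b → F b = 0 := fun b hb =>
    sum_evalAt_mul_eq_zero hM E hE 1 b (fun x => by rw [one_mul, inv_one, mul_one])
      fun z m hz => by
        rw [one_pow, one_mul, mul_eq_left] at hz
        exact hb.trans (orderOf_dvd_of_pow_eq_one hz)
  have key : ∀ ψ : IrrCharacter H,
      evalAt E (ψ : H → ℂ) 1 = (Nat.card H : ℂ)⁻¹ * ∑ b, F b * conj ((ψ : H → ℂ) b) := by
    intro ψ
    rw [hF]
    simp only [Finset.sum_mul]
    rw [Finset.sum_comm, Finset.mul_sum]
    symm
    rw [Finset.sum_eq_single ψ]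
    · have h1 := CharTheory.classInner_irrCharacter ψ ψ
      rw [if_pos rfl, classInner] at h1
      conv_rhs => rw [← mul_one (evalAt E (ψ : H → ℂ) 1), ← h1]
      simp only [Finset.mul_sum]
      exact Finset.sum_congr rfl fun b _ => by ring
    · intro χ _ hne
      have h1 := CharTheory.classInner_irrCharacter χ ψ
      rw [if_neg hne, classInner] at h1
      rw [← mul_zero (evalAt E (χ : H → ℂ) 1), ← h1]
      simp only [Finset.mul_sum]
      exact Finset.sum_congr rfl fun b _ => by ring
    · exact fun h => absurd (Finset.mem_univ _) h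
  rw [hval, hval, key, key]
  congr 1
  refine Finset.sum_congr rfl fun b _ => ?_
  by_cases hb : p ∣ orderOf b
  · rw [hsing b hb, zero_mul, zero_mul]
  · rw [h b hb]

/-- A central element acts by its scalar. -/
theorem val_central (ξ : IrrCharacter H) {z : H} (hz : ∀ h : H, Commute z h)
    {ε : MonoidAlgebra (Res M) H} (hε : ε * ε = ε) :
    val ξ z ε = centralVal (ξ : H → ℂ) z * val ξ 1 ε := by
  have hzc : ∀ h : H, Commute (single z (1 : Res M)) (single h (1 : Res M)) := fun h => by
    show single z (1 : Res M) * single h 1 = single h 1 * single z 1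
    rw [single_mul_single, single_mul_single, (hz h).eq]
  have hzε : Commute (single z (1 : Res M)) ε := by
    clear hε
    induction ε using MonoidAlgebra.induction_linear with
    | zero => exact Commute.zero_right _
    | add a b ha hb => exact ha.add_right hb
    | single h r =>
      show single z (1 : Res M) * single h r = single h r * single z 1
      rw [single_mul_single, single_mul_single, (hz h).eq, one_mul, mul_one]
  obtain ⟨E, hE, hEm, hEc⟩ := BlockStar.exists_lift_fixed hε hzε
  have hE1 : Commute (single (1 : H) (1 : locRing M)) E := by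
    rw [← one_def]; exact Commute.one_left _
  rw [BlockStar.val_eq ξ hE hEm hEc, BlockStar.val_eq ξ hE hEm hE1, hEc.eq, hE1.eq,
    BlockStar.chiSum_eq_evalAt, BlockStar.chiSum_eq_evalAt, evalAt_apply, evalAt_apply,
    Finset.mul_sum]
  refine Finset.sum_congr rfl fun h _ => ?_
  rw [mul_one, ← (hz h).eq, (centralVal_spec ξ hz).2 h]
  ring

/-- All members of the block have the same regular part. -/
def AllEq (p : ℕ) (b : Set (IrrCharacter H)) : Prop :=
  ∀ ξ ∈ b, ∀ ξ' ∈ b, ∀ g : H, ¬ p ∣ orderOf g → (ξ : H → ℂ) g = (ξ' : H → ℂ) g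

theorem AllEq.degree_eq {b : Set (IrrCharacter H)} (hb : AllEq p b) {ξ ξ' : IrrCharacter H}
    (h : ξ ∈ b) (h' : ξ' ∈ b) : (ξ : H → ℂ) 1 = (ξ' : H → ℂ) 1 :=
  hb ξ h ξ' h' 1 (by rw [orderOf_one]; exact (Fact.out : p.Prime).not_dvd_one)

section Row

variable {G : Type*} [Group G] [Fintype G] (C : Subgroup G) [Fintype C]

/-- The multiplicities in a block weighted by the scalars of a central element. -/
def rowVal (b : Set (IrrCharacter C)) (χ : IrrCharacter G) (z : C) : ℂ :=
  ∑ ξ ∈ blockFinset b, (subMult C χ ξ : ℂ) * centralVal (ξ : C → ℂ) z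

theorem isIntegral_rowVal (b : Set (IrrCharacter C)) (χ : IrrCharacter G) {z : C}
    (hz : ∀ c : C, Commute z c) : IsIntegral ℤ (rowVal C b χ z) :=
  IsIntegral.sum _ fun ξ _ => IsIntegral.mul isIntegral_algebraMap
    (IsIntegral.of_pow (isOfFinOrder_of_finite z).orderOf_pos
      (by rw [(centralVal_spec ξ hz).1]; exact isIntegral_one))

/-- The block part on the section. -/
theorem subFun_eq_rowVal {b : Set (IrrCharacter C)} (hb : AllEq p b) {ξ0 : IrrCharacter C}
    (h0 : ξ0 ∈ b) (χ : IrrCharacter G) {z : C} (hz : ∀ c : C, Commute z c) {s : C}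
    (hs : ¬ p ∣ orderOf s) : subFun C b χ (z * s) = rowVal C b χ z * (ξ0 : C → ℂ) s := by
  rw [subFun, rowVal, Finset.sum_mul]
  refine Finset.sum_congr rfl fun ξ hξ => ?_
  rw [(centralVal_spec ξ hz).2 s, hb ξ (mem_blockFinset.1 hξ) ξ0 h0 s hs, mul_assoc]

/-- The value at the block idempotent. -/
theorem val_subIdem_eq_rowVal {b : Set (IrrCharacter C)} (hbl : IsPBlock M b) (hb : AllEq p b)
    {ξ0 : IrrCharacter C} (h0 : ξ0 ∈ b) (χ : IrrCharacter G) {z : C}
    (hz : ∀ c : C, Commute z c) :
    val χ (z : G) (subIdem M C b) = rowVal C b χ z * (ξ0 : C → ℂ) 1 := by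
  rw [BlockStar.val_subIdem χ C hbl, ← subFun_eq_rowVal C hb h0 χ hz
    (s := 1) (by rw [orderOf_one]; exact (Fact.out : p.Prime).not_dvd_one), mul_one]

/-- The value at an idempotent of the block. -/
theorem val_eq_rowVal (hM : IsPModular p M) {b : Set (IrrCharacter C)} (hbl : IsPBlock M b)
    (hb : AllEq p b) {ξ0 : IrrCharacter C} (h0 : ξ0 ∈ b) (χ : IrrCharacter G) {z : C}
    (hz : ∀ c : C, Commute z c) {x : MonoidAlgebra (Res M) C} (hx : x * x = x)
    (hxb : x * redElem M (blockCoeff b) = x) :
    val χ (z : G) (mapG C.subtype x) = rowVal C b χ z * val ξ0 1 x := by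
  classical
  haveI := Fintype.ofFinite (IrrCharacter C)
  have hzx : Commute (single z (1 : Res M)) x := by
    clear hx hxb
    induction x using MonoidAlgebra.induction_linear with
    | zero => exact Commute.zero_right _
    | add a b ha hb => exact ha.add_right hb
    | single h r =>
      show single z (1 : Res M) * single h r = single h r * single z 1
      rw [single_mul_single, single_mul_single, (hz h).eq, one_mul, mul_one]
  rw [val_subtype C χ hx hzx, rowVal, Finset.sum_mul]
  symm
  refine Finset.sum_subset_zero_on_sdiff (Finset.subset_univ _) (fun ξ hξ => ?_) (fun ξ hξ => ?_)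
  · simp only [Finset.mem_sdiff, Finset.mem_univ, true_and, mem_blockFinset] at hξ
    have hb' := isPBlock_blockOf (M := M) ξ
    rw [← BlockStar.val_mul_redElem ξ hb' (mem_blockOf_self ξ) hx hzx]
    have h2 : x * redElem M (blockCoeff (blockOf M (ξ : C → ℂ))) = 0 := by
      rw [← hxb, mul_assoc, (isBlockIdem_redElem_blockCoeff (M := M) hbl).mul_eq_zero_of_ne
        (isBlockIdem_redElem_blockCoeff (M := M) hb')
        (fun h => hξ (redElem_blockCoeff_injective hbl hb' h ▸ mem_blockOf_self ξ)), mul_zero]
    rw [h2, BlockStar.val_zero, mul_zero]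
  · rw [val_central ξ hz hx, val_one_eq_of_regular_eq hM (hb ξ (mem_blockFinset.1 hξ) ξ0 h0) hx]
    ring

end Row

end CfsgLib.RealChar.FreeInertial
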