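import Cfsg.Agent.Lib.RealChar.FreeInertial.Local
import Cfsg.Agent.Lib.BlockSections.Count
import Cfsg.Agent.Lib.BlockStar.Star

/-!
# The rows at the elements of an abelian defect group moved freely

`rowD χ u` is the generalised decomposition number of `χ` at the subsection of `u`. The columns
are orthogonal outside the orbits of the stabiliser of the pair and orthogonal to the degrees,
and no row of the block vanishes.
-/

set_option autoImplicit false
set_option linter.style.haveILetI false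
set_option linter.unusedSectionVars false

noncomputable section

namespace CfsgLib.RealChar.FreeInertial

open Cfsg CfsgLib.Blocks MonoidAlgebra CfsgLib.BrauerPairs
open CfsgLib.BlockStar (val)
open CfsgLib.BlockSections (belowBlock belowBlock_spec)
open CfsgLib.BrauerCharacters (cenElem commute_cenElem blockFinset mem_blockFinset secPart
  secKernel centralVal centralVal_spec)
open scoped ComplexConjugate

theorem sum_kernel {ι Z W : Type*} [Fintype Z] [Fintype W] (S : Finset ι) (φ : ι → Z → ℂ)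
    (ψ : ι → W → ℂ) (a a' : ℂ) (K : Z → ℂ) (K' : W → ℂ) :
    ∑ i ∈ S, (a * ∑ z, φ i z * K z) * conj (a' * ∑ w, ψ i w * K' w) =
      a * conj a' * ∑ z, ∑ w, K z * conj (K' w) * ∑ i ∈ S, φ i z * conj (ψ i w) := by
  rw [Finset.sum_congr rfl (g := fun i => ∑ z, ∑ w,
    a * conj a' * (K z * conj (K' w) * (φ i z * conj (ψ i w)))) (fun i _ => by
      rw [map_mul, map_sum, mul_mul_mul_comm, Finset.sum_mul_sum, Finset.mul_sum]
      refine Finset.sum_congr rfl fun z _ => ?_
      rw [Finset.mul_sum]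
      exact Finset.sum_congr rfl fun w _ => by rw [map_mul]; ring),
    Finset.sum_comm, Finset.mul_sum]
  refine Finset.sum_congr rfl fun z _ => ?_
  rw [Finset.sum_comm, Finset.mul_sum]
  exact Finset.sum_congr rfl fun w _ => by rw [Finset.mul_sum, Finset.mul_sum]

section Cross

variable {G : Type*} [Group G] [Fintype G] {p : ℕ} [Fact p.Prime] {M : Ideal AlgInt} [M.IsPrime]
  {y y' : G} [Fintype (Subgroup.centralizer ({y} : Set G))]
  [Fintype (Subgroup.centralizer ({y'} : Set G))]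
  {b : Set (IrrCharacter (Subgroup.centralizer ({y} : Set G)))}
  {b' : Set (IrrCharacter (Subgroup.centralizer ({y'} : Set G)))}

theorem secPart_eq_kernel (χ : IrrCharacter G) (s : Subgroup.centralizer ({y} : Set G)) :
    secPart y b χ s = (Nat.card (Subgroup.centralizer ({y} : Set G)) : ℂ)⁻¹ *
      ∑ z : Subgroup.centralizer ({y} : Set G), (χ : G → ℂ) z * secKernel y b s z := by
  rw [← BrauerCharacters.sum_classInner_mul_eq y b
    (fun z : Subgroup.centralizer ({y} : Set G) => (χ : G → ℂ) z) s, secPart]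
  exact Finset.sum_congr rfl fun ξ _ => by rw [BrauerCharacters.coe_resMult]

theorem isPPart_coe_of_isPPart {z : Subgroup.centralizer ({y} : Set G)}
    (h : IsPPart p z (cenElem y)) : IsPPart p (z : G) y := by
  obtain ⟨u, hu, hc, hk, hu'⟩ := h
  exact ⟨(u : G), congrArg Subtype.val hu, congrArg Subtype.val hc.eq,
    by rwa [← Subgroup.orderOf_coe] at hk, by rwa [← Subgroup.orderOf_coe] at hu'⟩

/-- Block parts on sections of non-conjugate elements are orthogonal. -/
theorem sum_secPart_of_not_isConj [Fintype (IrrCharacter G)] (hM : IsPModular p M)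
    (hy : ∃ k : ℕ, orderOf y = p ^ k) (hy' : ∃ k : ℕ, orderOf y' = p ^ k) (hb : IsPBlock M b)
    (hb' : IsPBlock M b') (hne : ¬ IsConj y y') {s : Subgroup.centralizer ({y} : Set G)}
    {t : Subgroup.centralizer ({y'} : Set G)} (hs : ¬ p ∣ orderOf s) (ht : ¬ p ∣ orderOf t) :
    ∑ χ : IrrCharacter G, secPart y b χ s * conj (secPart y' b' χ t) = 0 := by
  classical
  simp only [secPart_eq_kernel]
  rw [sum_kernel]
  refine mul_eq_zero_of_right _ (Finset.sum_eq_zero fun z _ => Finset.sum_eq_zero fun w _ => ?_)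
  by_cases hz : secKernel y b s z = 0
  · simp [hz]
  by_cases hw : secKernel y' b' t w = 0
  · simp [hw]
  refine mul_eq_zero_of_right _ ?_
  rw [CharTheory.sum_mul_conj, if_neg fun hcj => hne ?_]
  obtain ⟨c, hc⟩ := isConj_iff.1 hcj
  have h1 := Blocks.IsPPart.conj
    (isPPart_coe_of_isPPart (BrauerCharacters.isPPart_of_secKernel_ne_zero y b hy hM hb hs hz)) c
  rw [hc] at h1
  exact isConj_iff.2 ⟨c, Blocks.IsPPart.unique h1 (isPPart_coe_of_isPPart
    (BrauerCharacters.isPPart_of_secKernel_ne_zero y' b' hy' hM hb' ht hw))⟩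

/-- Parts in different blocks on one section are orthogonal over the characters. -/
theorem sum_secPart_of_ne [Fintype (IrrCharacter G)] (hM : IsPModular p M)
    (hy : ∃ k : ℕ, orderOf y = p ^ k) (hb : IsPBlock M b)
    {b₂ : Set (IrrCharacter (Subgroup.centralizer ({y} : Set G)))} (hb₂ : IsPBlock M b₂)
    (hne : b ≠ b₂) {s t : Subgroup.centralizer ({y} : Set G)} (hs : ¬ p ∣ orderOf s)
    (ht : ¬ p ∣ orderOf t) :
    ∑ χ : IrrCharacter G, secPart y b χ s * conj (secPart y b₂ χ t) = 0 := by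
  classical
  haveI := Fintype.ofFinite (IrrCharacter (Subgroup.centralizer ({y} : Set G)))
  simp only [secPart_eq_kernel]
  rw [sum_kernel]
  have h1 : ∀ (B₁ : Set (IrrCharacter (Subgroup.centralizer ({y} : Set G))))
      (r : Subgroup.centralizer ({y} : Set G))
      (η : IrrCharacter (Subgroup.centralizer ({y} : Set G))),
      (Nat.card (Subgroup.centralizer ({y} : Set G)) : ℂ)⁻¹ *
        ∑ z, (η : Subgroup.centralizer ({y} : Set G) → ℂ) z * secKernel y B₁ r z =
      if η ∈ blockFinset B₁ then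
        (η : Subgroup.centralizer ({y} : Set G) → ℂ) (cenElem y * r) else 0 := fun B₁ r η => by
    rw [← BrauerCharacters.sum_classInner_mul_eq y B₁
      (η : Subgroup.centralizer ({y} : Set G) → ℂ) r,
      Finset.sum_congr rfl (g := fun ξ : IrrCharacter (Subgroup.centralizer ({y} : Set G)) =>
      if η = ξ then (ξ : Subgroup.centralizer ({y} : Set G) → ℂ) (cenElem y * r) else 0)
      (fun ξ _ => by rw [CharTheory.classInner_irrCharacter]; split_ifs <;> simp),
      Finset.sum_ite_eq]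
  have h2 : ∑ η : IrrCharacter (Subgroup.centralizer ({y} : Set G)),
      ((Nat.card (Subgroup.centralizer ({y} : Set G)) : ℂ)⁻¹ *
        ∑ z, (η : Subgroup.centralizer ({y} : Set G) → ℂ) z * secKernel y b s z) *
      conj ((Nat.card (Subgroup.centralizer ({y} : Set G)) : ℂ)⁻¹ *
        ∑ z, (η : Subgroup.centralizer ({y} : Set G) → ℂ) z * secKernel y b₂ t z) = 0 := by
    refine Finset.sum_eq_zero fun η _ => ?_
    rw [h1, h1]
    by_cases hη : η ∈ blockFinset b
    · rw [if_neg (c := η ∈ blockFinset b₂) fun h => hne (isPBlock_eq_of_mem hb hb₂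
        (mem_blockFinset.1 hη) (mem_blockFinset.1 h)), map_zero, mul_zero]
    · rw [if_neg hη, zero_mul]
  rw [sum_kernel] at h2
  rw [← h2]
  congr 1
  refine Finset.sum_congr rfl fun z _ => Finset.sum_congr rfl fun w _ => ?_
  by_cases hz : secKernel y b s z = 0
  · simp [hz]
  by_cases hw : secKernel y b₂ t w = 0
  · simp [hw]
  rw [BrauerCharacters.sum_irr_eq_of_isPPart y
    (BrauerCharacters.isPPart_of_secKernel_ne_zero y b hy hM hb hs hz)
    (BrauerCharacters.isPPart_of_secKernel_ne_zero y b₂ hy hM hb₂ ht hw)]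

/-- A block part on the section of a nontrivial element is orthogonal to the degrees. -/
theorem sum_degree_mul_secPart [Fintype (IrrCharacter G)] (hM : IsPModular p M)
    (hy : ∃ k : ℕ, orderOf y = p ^ k) (hy1 : y ≠ 1) (hb : IsPBlock M b)
    {s : Subgroup.centralizer ({y} : Set G)} (hs : ¬ p ∣ orderOf s) :
    ∑ χ : IrrCharacter G, (χ : G → ℂ) 1 * secPart y b χ s = 0 := by
  classical
  simp only [secPart_eq_kernel, Finset.mul_sum]
  rw [Finset.sum_comm]
  refine Finset.sum_eq_zero fun z _ => ?_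
  by_cases hz : secKernel y b s z = 0
  · simp [hz]
  have hp := isPPart_coe_of_isPPart
    (BrauerCharacters.isPPart_of_secKernel_ne_zero y b hy hM hb hs hz)
  have hz1 : (z : G) ≠ 1 := fun h => hy1 (by
    rw [h] at hp
    exact Blocks.IsPPart.unique hp ⟨1, one_mul 1, Commute.one_left 1, ⟨0, by simp⟩,
      by rw [orderOf_one]; exact (Fact.out : p.Prime).not_dvd_one⟩)
  rw [Finset.sum_congr rfl (g := fun χ : IrrCharacter G =>
    (Nat.card (Subgroup.centralizer ({y} : Set G)) : ℂ)⁻¹ * secKernel y b s z *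
      ((χ : G → ℂ) 1 * (χ : G → ℂ) z)) (fun χ _ => by ring), ← Finset.mul_sum,
    CharTheory.sum_degree_mul, if_neg hz1, mul_zero]

end Cross

variable {G : Type*} [Group G] [Fintype G] {p : ℕ} [Fact p.Prime] {M : Ideal AlgInt} [M.IsPrime]
  [CharP (Res M) p] [IsAlgClosed (Res M)] {B : Set (IrrCharacter G)} {P : Subgroup G}
  {e0 : MonoidAlgebra (Res M) G} [∀ y : G, Fintype (Subgroup.centralizer ({y} : Set G))]

/-- The decomposition number of `χ` at the subsection of `u`. -/
def rowD (p : ℕ) (P : Subgroup G) (e0 : MonoidAlgebra (Res M) G) (χ : IrrCharacter G) (u : G) :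
    ℂ :=
  rowVal (Subgroup.centralizer ({u} : Set G)) (belowBlock (M := M) p P e0 u) χ (cenElem u)

theorem isIntegral_rowD (χ : IrrCharacter G) (u : G) :
    IsIntegral ℤ (rowD (M := M) p P e0 χ u) :=
  isIntegral_rowVal _ _ χ (commute_cenElem u)

variable (hM : IsPModular p M) (hB : IsPBlock M B)
  (hmax : IsMaxPair p (⊤ : Subgroup G) (redElem M (blockCoeff B)) P e0)
  (hab : ∀ x ∈ P, ∀ y ∈ P, x * y = y * x)
  (hfree : ∀ t ∈ pairStab (⊤ : Subgroup G) P e0, ∀ u ∈ P, u ≠ 1 → t * u * t⁻¹ = u →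
    t ∈ Subgroup.centralizer (P : Set G))
include hM hB hmax hab hfree

/-- The block at a nontrivial element. -/
theorem below_spec {u : G} (hu : u ∈ P) (hu1 : u ≠ 1) :
    AllEq p (belowBlock (M := M) p P e0 u) ∧
      Nat.card (belowBlock (M := M) p P e0 u) = Nat.card P := by
  obtain ⟨b, e', hbl, hle, -, -, -, -, hall, hcard⟩ := exists_nilp_below hM hB hmax hab
    (Q := Subgroup.zpowers u) (Subgroup.zpowers_le.2 hu)
    (K := Subgroup.centralizer ({u} : Set G))
    (BrauerCharacters.centralizer_zpowers_eq u).symm (fun t ht htK => hfree t ht u hu hu1 (by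
      rw [Subgroup.mem_centralizer_singleton_iff.1 htK, mul_inv_cancel_right]))
  obtain ⟨hbl', hle', -⟩ := belowBlock_spec hM hB hmax hu
  have heq : b = belowBlock (M := M) p P e0 u := subIdem_injective hbl hbl'
    ((existsUnique_pairLE hmax.1.1 (Subgroup.zpowers_le.2 hu)).unique hle hle')
  subst heq
  exact ⟨hall, hcard⟩

/-- The block part on the section. -/
theorem secPart_eq_rowD {u : G} (hu : u ∈ P) (hu1 : u ≠ 1)
    {ξ0 : IrrCharacter (Subgroup.centralizer ({u} : Set G))}
    (h0 : ξ0 ∈ belowBlock (M := M) p P e0 u) (χ : IrrCharacter G)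
    {s : Subgroup.centralizer ({u} : Set G)} (hs : ¬ p ∣ orderOf s) :
    secPart u (belowBlock (M := M) p P e0 u) χ s =
      rowD (M := M) p P e0 χ u * (ξ0 : Subgroup.centralizer ({u} : Set G) → ℂ) s :=
  subFun_eq_rowVal _ (below_spec hM hB hmax hab hfree hu hu1).1 h0 χ (commute_cenElem u) hs

theorem rowD_eq_zero_of_notMem {u : G} (hu : u ∈ P) (hu1 : u ≠ 1) {χ : IrrCharacter G}
    (hχ : χ ∉ B) : rowD (M := M) p P e0 χ u = 0 := by
  obtain ⟨hbl, -, hind⟩ := belowBlock_spec hM hB hmax hu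
  obtain ⟨ξ0, h0⟩ := isPBlock_nonempty hbl
  have h1 : ¬ p ∣ orderOf (1 : Subgroup.centralizer ({u} : Set G)) := by
    rw [orderOf_one]; exact (Fact.out : p.Prime).not_dvd_one
  have h := BrauerCharacters.secPart_eq_zero_of_isInducedBlock u
    (BlockSections.isPElem_of_mem hM hB hmax hu) hM hind hχ h1
  rw [secPart_eq_rowD hM hB hmax hab hfree hu hu1 h0 χ h1] at h
  exact (mul_eq_zero.1 h).resolve_right (CharTheory.apply_one_ne_zero_of_isIrr ξ0.2)

/-- The degree-weighted norm of a column. -/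
theorem sum_rowD_mul_conj_self [Fintype (IrrCharacter G)] {u : G} (hu : u ∈ P) (hu1 : u ≠ 1) :
    ∑ χ : IrrCharacter G, rowD (M := M) p P e0 χ u * conj (rowD (M := M) p P e0 χ u) =
      (Nat.card P : ℂ) := by
  classical
  obtain ⟨hall, hcard⟩ := below_spec hM hB hmax hab hfree hu hu1
  obtain ⟨hbl, -, -⟩ := belowBlock_spec hM hB hmax hu
  obtain ⟨ξ0, h0⟩ := isPBlock_nonempty hbl
  have h1 : ¬ p ∣ orderOf (1 : Subgroup.centralizer ({u} : Set G)) := by
    rw [orderOf_one]; exact (Fact.out : p.Prime).not_dvd_one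
  have h := BrauerCharacters.sum_secPart_mul_conj u (belowBlock (M := M) p P e0 u)
    (BlockSections.isPElem_of_mem hM hB hmax hu) hM hbl h1 h1
  simp only [secPart_eq_rowD hM hB hmax hab hfree hu hu1 h0 _ h1, map_mul, mul_one] at h
  set f := (ξ0 : Subgroup.centralizer ({u} : Set G) → ℂ) 1 with hf
  have hr : ∀ ξ ∈ blockFinset (belowBlock (M := M) p P e0 u),
      (ξ : Subgroup.centralizer ({u} : Set G) → ℂ) (cenElem u) *
        conj ((ξ : Subgroup.centralizer ({u} : Set G) → ℂ) (cenElem u)) = f * conj f := by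
    intro ξ hξ
    obtain ⟨hpow, hmul⟩ := centralVal_spec ξ (commute_cenElem u)
    have hm := hmul 1
    rw [mul_one] at hm
    rw [hm, hall.degree_eq (mem_blockFinset.1 hξ) h0, ← hf, map_mul, mul_mul_mul_comm,
      Complex.mul_conj', CharTheory.norm_eq_one_of_pow_eq_one'
        (isOfFinOrder_of_finite _).orderOf_pos.ne' hpow]
    simp
  rw [Finset.sum_congr rfl hr, Finset.sum_const, nsmul_eq_mul,
    BrauerCharacters.card_blockFinset, hcard] at h
  have hf0 : f * conj f ≠ 0 := mul_ne_zero (CharTheory.apply_one_ne_zero_of_isIrr ξ0.2)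
    ((map_ne_zero _).2 (CharTheory.apply_one_ne_zero_of_isIrr ξ0.2))
  refine mul_right_cancel₀ hf0 ?_
  rw [← h, Finset.sum_mul]
  exact Finset.sum_congr rfl fun χ _ => by ring

/-- The stabiliser permutes the columns. -/
theorem rowD_conj {u : G} (hu : u ∈ P) (hu1 : u ≠ 1) {t : G}
    (ht : t ∈ pairStab (⊤ : Subgroup G) P e0) (χ : IrrCharacter G) :
    rowD (M := M) p P e0 χ (t * u * t⁻¹) = rowD (M := M) p P e0 χ u := by
  classical
  haveI := Fintype.ofFinite (IrrCharacter G)
  obtain ⟨hv, hβ⟩ := BlockSections.conjA_belowBlock hM hB hmax hu ht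
  have hv1 : t * u * t⁻¹ ≠ 1 := fun h => hu1 (conj_eq_one_iff.1 h)
  obtain ⟨hblu, hleu, -⟩ := belowBlock_spec hM hB hmax hu
  obtain ⟨hblv, -, -⟩ := belowBlock_spec hM hB hmax hv
  obtain ⟨ξu, hξu⟩ := isPBlock_nonempty hblu
  obtain ⟨ξv, hξv⟩ := isPBlock_nonempty hblv
  obtain ⟨a, hfu⟩ : ∃ a : ℂ, (ξu : Subgroup.centralizer ({u} : Set G) → ℂ) 1 = a := ⟨_, rfl⟩
  obtain ⟨a', hfv⟩ : ∃ a' : ℂ,
      (ξv : Subgroup.centralizer ({t * u * t⁻¹} : Set G) → ℂ) 1 = a' := ⟨_, rfl⟩
  have hval : ∀ ψ : IrrCharacter G,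
      rowD (M := M) p P e0 ψ (t * u * t⁻¹) * a' = rowD (M := M) p P e0 ψ u * a := by
    intro ψ
    have h1 := val_subIdem_eq_rowVal (M := M) _ hblu (below_spec hM hB hmax hab hfree hu hu1).1
      hξu ψ (commute_cenElem u)
    have h2 := val_subIdem_eq_rowVal (M := M) _ hblv (below_spec hM hB hmax hab hfree hv hv1).1
      hξv ψ (commute_cenElem (t * u * t⁻¹))
    rw [hfu] at h1
    rw [hfv] at h2
    refine (h2.symm.trans ?_).trans h1
    show val ψ (t * u * t⁻¹) _ = val ψ u _
    rw [← hβ, BlockStar.val_conj ψ t (isBlockIdem_subIdem hblu).mul_self]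
    exact BlockStar.commute_single_iff.2 ((mem_ctr.1 (isBlockIdem_subIdem (M := M) hblu).mem).2 u
      (Subgroup.mem_centralizer_singleton_iff.2 rfl))
  have hN : ∑ ψ : IrrCharacter G, (rowD (M := M) p P e0 ψ (t * u * t⁻¹) * a') *
      conj (rowD (M := M) p P e0 ψ (t * u * t⁻¹) * a') =
      ∑ ψ : IrrCharacter G, (rowD (M := M) p P e0 ψ u * a) *
        conj (rowD (M := M) p P e0 ψ u * a) :=
    Finset.sum_congr rfl fun ψ _ => by rw [hval]
  rw [Finset.sum_congr rfl (fun ψ _ => show (rowD (M := M) p P e0 ψ (t * u * t⁻¹) * a') *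
      conj (rowD (M := M) p P e0 ψ (t * u * t⁻¹) * a') =
      (rowD (M := M) p P e0 ψ (t * u * t⁻¹) * conj (rowD (M := M) p P e0 ψ (t * u * t⁻¹))) *
        (a' * conj a') by rw [map_mul]; ring),
    Finset.sum_congr rfl (fun ψ _ => show (rowD (M := M) p P e0 ψ u * a) *
      conj (rowD (M := M) p P e0 ψ u * a) =
      (rowD (M := M) p P e0 ψ u * conj (rowD (M := M) p P e0 ψ u)) * (a * conj a) by
        rw [map_mul]; ring), ← Finset.sum_mul, ← Finset.sum_mul] at hN
  rw [sum_rowD_mul_conj_self hM hB hmax hab hfree hv hv1,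
    sum_rowD_mul_conj_self hM hB hmax hab hfree hu hu1] at hN
  obtain ⟨du, hdu, -⟩ : (ξu : Subgroup.centralizer ({u} : Set G) → ℂ) 1 =
      (charDegree (ξu : Subgroup.centralizer ({u} : Set G) → ℂ) : ℂ) ∧
      0 < charDegree (ξu : Subgroup.centralizer ({u} : Set G) → ℂ) ∧ True :=
    ⟨(BrauerCharacters.charDegree_spec ξu).1, (BrauerCharacters.charDegree_spec ξu).2.1, trivial⟩
  obtain ⟨e1, d1, -⟩ := BrauerCharacters.charDegree_spec ξu
  obtain ⟨e2, d2, -⟩ := BrauerCharacters.charDegree_spec ξv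
  rw [hfu] at e1
  rw [hfv] at e2
  have hN' := mul_left_cancel₀ (Nat.cast_ne_zero.2 Nat.card_pos.ne') hN
  rw [e1, e2, map_natCast, map_natCast, ← Nat.cast_mul, ← Nat.cast_mul, Nat.cast_inj] at hN'
  have haa : a' = a := by rw [e1, e2, Nat.mul_self_inj.1 hN']
  have h := hval χ
  rw [haa] at h
  exact mul_right_cancel₀ (by rw [e1]; exact Nat.cast_ne_zero.2 d1.ne') h

/-- Columns outside one orbit are orthogonal. -/
theorem sum_rowD_mul_conj_eq_zero [Fintype (IrrCharacter G)] {u v : G} (hu : u ∈ P) (hu1 : u ≠ 1)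
    (hv : v ∈ P) (hv1 : v ≠ 1)
    (hno : ∀ t ∈ pairStab (⊤ : Subgroup G) P e0, t * u * t⁻¹ ≠ v) :
    ∑ χ : IrrCharacter G, rowD (M := M) p P e0 χ u * conj (rowD (M := M) p P e0 χ v) = 0 := by
  classical
  obtain ⟨hblu, hleu, -⟩ := belowBlock_spec hM hB hmax hu
  obtain ⟨hblv, hlev, -⟩ := belowBlock_spec hM hB hmax hv
  obtain ⟨ξu, hξu⟩ := isPBlock_nonempty hblu
  obtain ⟨ξv, hξv⟩ := isPBlock_nonempty hblv
  have h1 : ∀ y : G, ¬ p ∣ orderOf (1 : Subgroup.centralizer ({y} : Set G)) := fun y => by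
    rw [orderOf_one]; exact (Fact.out : p.Prime).not_dvd_one
  have hyu := BlockSections.isPElem_of_mem hM hB hmax hu
  have hyv := BlockSections.isPElem_of_mem hM hB hmax hv
  have hcancel : ∀ (a c : ℂ), a ≠ 0 → c ≠ 0 →
      (∑ χ : IrrCharacter G, (rowD (M := M) p P e0 χ u * a) *
        conj (rowD (M := M) p P e0 χ v * c) = 0) →
      ∑ χ : IrrCharacter G, rowD (M := M) p P e0 χ u * conj (rowD (M := M) p P e0 χ v) = 0 := by
    intro a c ha hc h
    rw [Finset.sum_congr rfl (fun χ _ => show (rowD (M := M) p P e0 χ u * a) *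
        conj (rowD (M := M) p P e0 χ v * c) =
      (rowD (M := M) p P e0 χ u * conj (rowD (M := M) p P e0 χ v)) * (a * conj c) by
        rw [map_mul]; ring), ← Finset.sum_mul] at h
    exact (mul_eq_zero.1 h).resolve_right (mul_ne_zero ha ((map_ne_zero _).2 hc))
  by_cases hconj : IsConj u v
  · obtain ⟨g, hg⟩ := isConj_iff.1 hconj
    have hblk : IsBlockIdem (Subgroup.centralizer ({u} : Set G))
        (conjA g⁻¹ (subIdem M _ (belowBlock (M := M) p P e0 v))) := by
      have h := IsBlockIdem.conj_cj g⁻¹ (isBlockIdem_subIdem (M := M) hblv)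
      rwa [← BlockSections.centralizer_cj_singleton, show g⁻¹ * v * g⁻¹⁻¹ = u by
        rw [← hg]; group] at h
    obtain ⟨b₂, hb₂, hb₂eq⟩ := exists_isPBlock_subIdem hblk
    have hne : belowBlock (M := M) p P e0 u ≠ b₂ := by
      intro h
      obtain ⟨t, ht, htu⟩ := BlockSections.exists_stab_of_conj hM hB hmax hab hu hv hg (by
        rw [h, hb₂eq, ← conjA_mul, mul_inv_cancel, conjA_one])
      exact hno t ht htu
    have h := sum_secPart_of_ne hM hyu hblu hb₂ hne (h1 u) (h1 u)
    refine hcancel _ _ (CharTheory.apply_one_ne_zero_of_isIrr ξu.2)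
      (CharTheory.apply_one_ne_zero_of_isIrr ξv.2) ?_
    rw [← h]
    refine Finset.sum_congr rfl fun χ _ => ?_
    rw [secPart_eq_rowD hM hB hmax hab hfree hu hu1 hξu χ (h1 u)]
    congr 2
    have hv' := val_subIdem_eq_rowVal (M := M) _ hblv (below_spec hM hB hmax hab hfree hv hv1).1
      hξv χ (commute_cenElem v)
    rw [rowD, ← hv']
    show val χ v _ = secPart u b₂ χ 1
    have hu' : secPart u b₂ χ 1 = val χ u (subIdem M _ b₂) := by
      rw [show secPart u b₂ χ 1 = subFun _ b₂ χ (cenElem u * 1) from rfl, mul_one,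
        ← BlockStar.val_subIdem χ _ hb₂]
      rfl
    rw [hu', hb₂eq, ← BlockStar.val_conj χ g⁻¹ (isBlockIdem_subIdem (M := M) hblv).mul_self
      (BlockStar.commute_single_iff.2 ((mem_ctr.1 (isBlockIdem_subIdem (M := M) hblv).mem).2 v
        (Subgroup.mem_centralizer_singleton_iff.2 rfl)))]
    rw [show g⁻¹ * v * g⁻¹⁻¹ = u by rw [← hg]; group]
  · have h := sum_secPart_of_not_isConj hM hyu hyv hblu hblv hconj (h1 u) (h1 v)
    simp only [secPart_eq_rowD hM hB hmax hab hfree hu hu1 hξu _ (h1 u),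
      secPart_eq_rowD hM hB hmax hab hfree hv hv1 hξv _ (h1 v)] at h
    exact hcancel _ _ (CharTheory.apply_one_ne_zero_of_isIrr ξu.2)
      (CharTheory.apply_one_ne_zero_of_isIrr ξv.2) h

/-- The columns are orthogonal to the degrees. -/
theorem sum_degree_mul_rowD [Fintype (IrrCharacter G)] {u : G} (hu : u ∈ P) (hu1 : u ≠ 1) :
    ∑ χ : IrrCharacter G, (χ : G → ℂ) 1 * rowD (M := M) p P e0 χ u = 0 := by
  obtain ⟨hbl, -, -⟩ := belowBlock_spec hM hB hmax hu
  obtain ⟨ξ0, h0⟩ := isPBlock_nonempty hbl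
  have h1 : ¬ p ∣ orderOf (1 : Subgroup.centralizer ({u} : Set G)) := by
    rw [orderOf_one]; exact (Fact.out : p.Prime).not_dvd_one
  have h := sum_degree_mul_secPart (b := belowBlock (M := M) p P e0 u) hM
    (BlockSections.isPElem_of_mem hM hB hmax hu) hu1 hbl h1
  simp only [secPart_eq_rowD hM hB hmax hab hfree hu hu1 h0 _ h1, ← mul_assoc,
    ← Finset.sum_mul] at h
  exact (mul_eq_zero.1 h).resolve_right (CharTheory.apply_one_ne_zero_of_isIrr ξ0.2)

/-- No row of the block vanishes. -/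
theorem exists_rowD_ne_zero (hk : 2 ≤ Nat.card B) {χ : IrrCharacter G} (hχ : χ ∈ B) :
    ∃ u ∈ P, u ≠ 1 ∧ rowD (M := M) p P e0 χ u ≠ 0 := by
  classical
  by_contra hzero
  push Not at hzero
  have hb := isBlockIdem_redElem_blockCoeff (M := M) hB
  have hvan : ∀ g : G, p ∣ orderOf g → (χ : G → ℂ) g = 0 := by
    intro g hg
    rw [BlockStar.apply_eq_sum_val (M := M) (p := p) χ g]
    refine Finset.sum_eq_zero fun c hc => ?_
    have hcb := mem_blockIdems.1 hc
    by_cases hp : PairOf p (⊤ : Subgroup G) (redElem M (blockCoeff B))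
        (Subgroup.zpowers (BlockStar.ppart p g)) c
    swap
    · exact BlockStar.val_eq_zero_of_not_pairOf hM hB hχ hcb hp
    obtain ⟨x, -, hx⟩ := hp.exists_conj_le hb hmax
    rw [BlockSections.cj_zpowers] at hx
    have hvP : x * BlockStar.ppart p g * x⁻¹ ∈ P := hx.le (Subgroup.mem_zpowers _)
    obtain ⟨hbl, hle, -⟩ := belowBlock_spec hM hB hmax hvP
    have hcx : conjA x c = subIdem M _
        (belowBlock (M := M) p P e0 (x * BlockStar.ppart p g * x⁻¹)) :=
      (existsUnique_pairLE hmax.1.1 (Subgroup.zpowers_le.2 hvP)).unique hx hle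
    obtain ⟨s, hs1, hs2, hs3, hs4⟩ := BlockStar.ppart_spec (p := p) g
    have hv1 : x * BlockStar.ppart p g * x⁻¹ ≠ 1 := fun h => by
      have h0 : BlockStar.ppart p g = 1 := conj_eq_one_iff.1 h
      rw [h0, one_mul] at hs1
      exact hs4 (hs1 ▸ hg)
    have hgg : x * g * x⁻¹ = x * BlockStar.ppart p g * x⁻¹ * (x * s * x⁻¹) := by
      conv_lhs => rw [← hs1]
      group
    have hsC : x * s * x⁻¹ ∈
        Subgroup.centralizer ({x * BlockStar.ppart p g * x⁻¹} : Set G) := by
      rw [Subgroup.mem_centralizer_singleton_iff]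
      calc x * s * x⁻¹ * (x * BlockStar.ppart p g * x⁻¹)
          = x * (s * BlockStar.ppart p g) * x⁻¹ := by group
        _ = x * (BlockStar.ppart p g * s) * x⁻¹ := by rw [hs2.eq]
        _ = _ := by group
    rw [← BlockStar.val_conj χ x hcb.mul_self (BlockStar.commute_block hcb 0).1, hcx, hgg]
    obtain ⟨ξ0, h0⟩ := isPBlock_nonempty hbl
    have hs' : ¬ p ∣ orderOf (⟨x * s * x⁻¹, hsC⟩ :
        Subgroup.centralizer ({x * BlockStar.ppart p g * x⁻¹} : Set G)) := by
      rw [Subgroup.orderOf_mk]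
      rwa [show x * s * x⁻¹ = MulAut.conj x s from rfl, MulEquiv.orderOf_eq]
    have hsec := secPart_eq_rowD hM hB hmax hab hfree hvP hv1 h0 χ hs'
    rw [hzero _ hvP hv1, zero_mul] at hsec
    rw [← hsec, show secPart (x * BlockStar.ppart p g * x⁻¹)
        (belowBlock (M := M) p P e0 (x * BlockStar.ppart p g * x⁻¹)) χ ⟨x * s * x⁻¹, hsC⟩ =
      subFun _ _ χ (cenElem _ * ⟨x * s * x⁻¹, hsC⟩) from rfl,
      ← BlockStar.val_subIdem χ _ hbl]
    rfl
  have hreg : pRegularPart p (χ : G → ℂ) = (χ : G → ℂ) := by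
    funext g
    rw [BrauerCharacters.pRegularPart_apply]
    split_ifs with h
    · exact (hvan g h).symm
    · rfl
  have hzero' : ∀ ψ : IrrCharacter G, ψ ≠ χ →
      BrauerCharacters.regEntry p B χ ψ = 0 := fun ψ hne => by
    have h := BrauerCharacters.coe_regEntry (p := p) hχ ψ
    rw [BrauerCharacters.regInner, hreg, CharTheory.classInner_irrCharacter, if_neg hne.symm,
      mul_zero] at h
    exact_mod_cast h
  obtain ⟨χ0, hχ0, h00⟩ :=
    BrauerCharacters.exists_height_eq_zero (p := p) (B := B) (Blocks.isPBlock_nonempty hB)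
  have hw := BrauerCharacters.weakOrth (p := p) hM hB
  by_cases hcase : χ0 = χ
  · obtain ⟨ψ, hψ, hne⟩ : ∃ ψ ∈ B, ψ ≠ χ := by
      by_contra hcon
      push Not at hcon
      have : Nat.card B ≤ 1 := by
        rw [Finite.card_le_one_iff_subsingleton]
        exact ⟨fun a b => Subtype.ext ((hcon a a.2).trans (hcon b b.2).symm)⟩
      omega
    refine BrauerCharacters.regEntry_ne_zero hw hM hB hψ hχ0 h00 ?_
    rw [hcase, BrauerCharacters.regEntry_comm]
    exact hzero' ψ hne
  · exact BrauerCharacters.regEntry_ne_zero hw hM hB hχ hχ0 h00 (hzero' χ0 hcase)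

end CfsgLib.RealChar.FreeInertial
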