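import Cfsg.Agent.Lib.Blocks.LocalRing
import Cfsg.Agent.Lib.BrauerPairs.StarFourier

/-!
# Local combinations of linear characters off the identity

`InS M f` says that off the identity `f` is a combination of linear characters of the finite
commutative group with coefficients in the local ring at `M`. These functions form a ring closed
under conjugation-free inverses, and it contains `|Y|` times every local function.
-/

set_option autoImplicit false
set_option linter.style.haveILetI false
set_option linter.unusedSectionVars false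

namespace CfsgLib.RealChar.FreeInertial

open Cfsg CfsgLib.Blocks Finset
open scoped ComplexConjugate

variable {Y : Type*} [CommGroup Y] [Fintype Y] [Fintype (Y →* ℂˣ)] {M : Ideal AlgInt} [M.IsPrime]

/-- Off the identity, a local combination of linear characters. -/
def InS (M : Ideal AlgInt) (f : Y → ℂ) : Prop :=
  ∃ c : (Y →* ℂˣ) → ℂ, (∀ l, MemLocalRing M (c l)) ∧
    ∀ u : Y, u ≠ 1 → f u = ∑ l, c l * (l u : ℂ)

theorem InS.congr {f g : Y → ℂ} (hf : InS M f) (h : ∀ u : Y, u ≠ 1 → g u = f u) : InS M g := by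
  obtain ⟨c, hc, hfc⟩ := hf
  exact ⟨c, hc, fun u hu => (h u hu).trans (hfc u hu)⟩

theorem InS.sum {κ : Type*} {s : Finset κ} {f : κ → Y → ℂ} (hf : ∀ k ∈ s, InS M (f k)) :
    InS M fun u => ∑ k ∈ s, f k u := by
  choose! c hc hfc using hf
  refine ⟨fun l => ∑ k ∈ s, c k l, fun l => memLocalRing_sum fun k hk => hc k hk l,
    fun u hu => ?_⟩
  dsimp only
  rw [sum_congr rfl fun k hk => hfc k hk u hu, sum_comm]
  simp only [sum_mul]

theorem InS.smul {f : Y → ℂ} (hf : InS M f) {a : ℂ} (ha : MemLocalRing M a) :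
    InS M fun u => a * f u := by
  obtain ⟨c, hc, hfc⟩ := hf
  refine ⟨fun l => a * c l, fun l => memLocalRing_mul ha (hc l), fun u hu => ?_⟩
  dsimp only
  rw [hfc u hu, mul_sum]
  exact sum_congr rfl fun l _ => by ring

theorem InS.add {f g : Y → ℂ} (hf : InS M f) (hg : InS M g) : InS M fun u => f u + g u := by
  obtain ⟨c, hc, hfc⟩ := hf
  obtain ⟨d, hd, hgd⟩ := hg
  refine ⟨fun l => c l + d l, fun l => memLocalRing_add (hc l) (hd l), fun u hu => ?_⟩
  dsimp only
  rw [hfc u hu, hgd u hu, ← sum_add_distrib]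
  exact sum_congr rfl fun l _ => by ring

theorem inS_linear (l : Y →* ℂˣ) : InS M fun u => (l u : ℂ) := by
  classical
  refine ⟨fun l' => if l' = l then 1 else 0, fun l' => ?_, fun u _ => by simp⟩
  dsimp only
  split_ifs
  · exact one_mem (locRing M)
  · exact zero_mem (locRing M)

theorem inS_const {a : ℂ} (ha : MemLocalRing M a) : InS M fun _ : Y => a := by
  have := (inS_linear (M := M) (1 : Y →* ℂˣ)).smul ha
  simpa using this

theorem inS_intComb {κ : Type*} (s : Finset κ) (n : κ → ℤ) (l : κ → (Y →* ℂˣ)) :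
    InS M fun u => ∑ k ∈ s, (n k : ℂ) * (l k u : ℂ) :=
  InS.sum fun k _ => (inS_linear (l k)).smul (memLocalRing_intCast _)

theorem InS.mul {f g : Y → ℂ} (hf : InS M f) (hg : InS M g) : InS M fun u => f u * g u := by
  obtain ⟨c, hc, hfc⟩ := hf
  obtain ⟨d, hd, hgd⟩ := hg
  refine InS.congr (f := fun u => ∑ k ∈ (univ ×ˢ univ : Finset ((Y →* ℂˣ) × (Y →* ℂˣ))),
    c k.1 * d k.2 * ((k.1 * k.2) u : ℂ))
    (InS.sum fun k _ => (inS_linear (k.1 * k.2)).smul (memLocalRing_mul (hc k.1) (hd k.2)))
    fun u hu => ?_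
  rw [hfc u hu, hgd u hu, sum_mul_sum, sum_product]
  exact sum_congr rfl fun a _ => sum_congr rfl fun b _ => by
    simp only [MonoidHom.mul_apply, Units.val_mul]; ring

theorem InS.pow {f : Y → ℂ} (hf : InS M f) : ∀ n : ℕ, InS M fun u => f u ^ n
  | 0 => by simpa using inS_const (Y := Y) (one_mem (locRing M))
  | n + 1 => by
      simp only [pow_succ]
      exact (hf.pow n).mul hf

theorem InS.prod {κ : Type*} {s : Finset κ} {f : κ → Y → ℂ} (hf : ∀ k ∈ s, InS M (f k)) :
    InS M fun u => ∏ k ∈ s, f k u := by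
  classical
  induction s using Finset.induction_on with
  | empty => simpa using inS_const (Y := Y) (one_mem (locRing M))
  | insert a s ha ih =>
    simp only [prod_insert ha]
    exact (hf a (mem_insert_self _ _)).mul (ih fun k hk => hf k (mem_insert_of_mem hk))

/-- Precomposition with an endomorphism without kernel. -/
theorem InS.comp {f : Y → ℂ} (hf : InS M f) (φ : Y →* Y) (hφ : ∀ u, φ u = 1 → u = 1) :
    InS M fun u => f (φ u) := by
  obtain ⟨c, hc, hfc⟩ := hf
  refine InS.congr (f := fun u => ∑ l, c l * ((l.comp φ) u : ℂ))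
    (InS.sum fun l _ => (inS_linear (l.comp φ)).smul (hc l)) fun u hu => ?_
  rw [hfc (φ u) fun h => hu (hφ u h)]
  simp

/-- The local values. -/
theorem InS.memLocalRing {f : Y → ℂ} (hf : InS M f) {u : Y} (hu : u ≠ 1) :
    MemLocalRing M (f u) := by
  obtain ⟨c, hc, hfc⟩ := hf
  rw [hfc u hu]
  refine memLocalRing_sum fun l _ => memLocalRing_mul (hc l) (memLocalRing_of_isIntegral ?_)
  refine IsIntegral.of_pow (isOfFinOrder_of_finite u).orderOf_pos ?_
  rw [← Units.val_pow_eq_pow_val, ← map_pow, pow_orderOf_eq_one, map_one, Units.val_one]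
  exact isIntegral_one

/-- The order times any local function. -/
theorem inS_card_mul {F : Y → ℂ} (hF : ∀ u : Y, u ≠ 1 → MemLocalRing M (F u)) :
    InS M fun u => (Fintype.card Y : ℂ) * F u := by
  classical
  refine InS.congr (f := fun u => ∑ l : Y →* ℂˣ,
    (∑ v ∈ univ.erase (1 : Y), F v * conj (l v : ℂ)) * (l u : ℂ))
    (InS.sum fun l _ => (inS_linear l).smul (memLocalRing_sum fun v hv =>
      memLocalRing_mul (hF v (mem_erase.1 hv).1) ?_)) fun u hu => ?_
  · rw [BrauerPairs.conj_unit_apply]
    refine memLocalRing_of_isIntegral (IsIntegral.of_pow (isOfFinOrder_of_finite v).orderOf_pos ?_)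
    rw [← Units.val_pow_eq_pow_val, ← map_pow, pow_orderOf_eq_one, map_one, Units.val_one]
    exact isIntegral_one
  · simp only [sum_mul]
    rw [sum_comm, sum_eq_single u]
    · rw [sum_congr rfl fun l _ => show F u * conj (l u : ℂ) * (l u : ℂ) = F u by
        rw [BrauerPairs.conj_unit_apply, mul_assoc, ← Units.val_mul, ← MonoidHom.mul_apply,
          inv_mul_cancel, MonoidHom.one_apply, Units.val_one, mul_one],
        sum_const, card_univ, nsmul_eq_mul, ← Nat.card_eq_fintype_card,
        ← Nat.card_eq_fintype_card, CommGroup.card_monoidHom_of_hasEnoughRootsOfUnity Y ℂ]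
    · intro v _ hvu
      rw [sum_congr rfl fun l _ => show F v * conj (l v : ℂ) * (l u : ℂ) = F v * (l (v⁻¹ * u) : ℂ) by
        rw [BrauerPairs.conj_unit_apply, map_mul, map_inv, Units.val_mul, MonoidHom.inv_apply,
          mul_assoc], ← mul_sum, BrauerPairs.sum_apply_dual,
        if_neg fun h => hvu (inv_mul_eq_one.1 h), mul_zero]
    · intro h
      exact absurd (mem_erase.2 ⟨hu, mem_univ _⟩) h

/-- Functions with unit values are invertible. -/
theorem InS.inv {f : Y → ℂ} (hf : InS M f)
    (hunit : ∀ u : Y, u ≠ 1 → ¬ MemLocalIdeal M (f u)) : InS M fun u => (f u)⁻¹ := by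
  classical
  have key : ∀ s : Finset Y, (∀ v ∈ s, v ≠ 1) → ∃ (h : Y → ℂ) (c : ℂ), InS M h ∧
      MemLocalRing M c ∧ ¬ MemLocalIdeal M c ∧ ∀ u ∈ s, f u * h u + c = 0 := by
    intro s hs
    induction s using Finset.induction_on with
    | empty =>
      exact ⟨fun _ => 0, 1, inS_const (zero_mem (locRing M)), one_mem (locRing M),
        not_memLocalIdeal_one, by simp⟩
    | insert v s hv ih =>
      obtain ⟨h, c, hh, hc, hc', hz⟩ := ih fun w hw => hs w (mem_insert_of_mem hw)
      have hv1 : v ≠ 1 := hs v (mem_insert_self _ _)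
      refine ⟨fun u => h u * f u + -(f v) * h u + c, -(f v) * c, ?_, ?_, ?_, fun u hu => ?_⟩
      · exact ((hh.mul hf).add (hh.smul (neg_mem (s := locRing M) (hf.memLocalRing hv1)))).add
          (inS_const hc)
      · exact memLocalRing_mul (neg_mem (s := locRing M) (hf.memLocalRing hv1)) hc
      · intro hbad
        rcases (memLocalIdeal_mul_iff (neg_mem (s := locRing M) (hf.memLocalRing hv1)) hc).1 hbad
          with h' | h'
        · exact hunit v hv1 (by simpa using memLocalIdeal_neg h')
        · exact hc' h'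
      · rw [show f u * (h u * f u + -(f v) * h u + c) + -(f v) * c =
          (f u * h u + c) * (f u - f v) by ring]
        rcases mem_insert.1 hu with rfl | hu'
        · rw [sub_self, mul_zero]
        · rw [hz u hu', zero_mul]
  obtain ⟨h, c, hh, hc, hc', hz⟩ := key (univ.erase (1 : Y)) fun v hv => (mem_erase.1 hv).1
  refine (hh.smul (neg_mem (s := locRing M) (memLocalRing_inv hc hc'))).congr fun u hu => ?_
  have h0 := hz u (mem_erase.2 ⟨hu, mem_univ _⟩)
  have hc0 : c ≠ 0 := fun h => hc' (h ▸ memLocalIdeal_zero)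
  refine inv_eq_of_mul_eq_one_right ?_
  rw [show f u * (-c⁻¹ * h u) = c⁻¹ * -(f u * h u) by ring,
    show -(f u * h u) = c by linear_combination -h0, inv_mul_cancel₀ hc0]

end CfsgLib.RealChar.FreeInertial
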